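import Cfsg.Agent.H58.Wreath.SU.Plane

/-!
Elements of the plane group centralising or normalising the line of the transvection.
-/

set_option autoImplicit false
set_option linter.unusedSectionVars false

namespace Cfsg.Agent.H58.Wreath.SU

open Matrix
open Cfsg.Agent.H99.Tensor
open Cfsg.Agent.H99.TensorU (sp ct sp_star sp_zero_comm sp_add_left sp_add_right sp_sub_left sp_sub_right sp_smul_left sp_smul_right sp_zero_left sp_zero_right lft_conjTranspose rgt_conjTranspose kron_conjTranspose vmv_mulVec partner eq_zero_of_sp)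
open Cfsg.Agent.H58.Wreath.Sp (Sx th up lo uni Rel)
open scoped Kronecker MatrixGroups

variable {F : Type*} [Field F] [StarRing F] {α : Type} [Fintype α] [DecidableEq α] {b : ℕ}

local notation "Ix" => α × Fin b

/-- No nilpotent elements in the algebra of a matrix. -/
def Red (x : Matrix α α F) : Prop := ∀ e : Sx x, e * e = 0 → e = 0

theorem lft_mulVec_inj {n : Fin b → F} (hn : n ≠ 0) {u : α → F} (h : lft α n *ᵥ u = 0) : u = 0 := by
  obtain ⟨k, hk⟩ := Function.ne_iff.1 hn
  funext j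
  have e := congrFun h (j, k)
  simp [mulVec, dotProduct, lft_apply] at e
  exact e.resolve_left hk

/-- A vector orthogonal to the vectors orthogonal to an isotropic vector is a multiple of it. -/
theorem eq_smul_of_perp {w v e : Fin b → F} (hw : sp w w = 0) (hwv : sp w v = 1) (hvw : sp v w = 1)
    (h : ∀ η, sp w η = 0 → sp η e = 0) : e = sp v e • w := by
  refine sub_eq_zero.1 (eq_zero_of_sp fun u => ?_)
  set η := u - sp w u • v with hη
  have hwη : sp w η = 0 := by rw [hη, sp_sub_right, sp_smul_right, hwv]; ring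
  have hu : u = η + sp w u • v := by rw [hη]; abel
  rw [hu, sp_add_left, sp_smul_left, sp_sub_right, sp_sub_right, sp_smul_right, sp_smul_right, h η hwη,
    sp_zero_comm.1 hwη, hvw]
  ring

namespace Frame

variable {M : Subgroup (GL (α × Fin b) F)} (S : Frame M)

/-- The kernels of the invariant and of the contraction agree. -/
def Tight : Prop := ∀ u : α → F, S.θ *ᵥ u = 0 → S.Cᴴ *ᵥ u = 0

/-- Frames in which centralisers of the transvection are known. -/
def Fine : Prop := S.Tight ∧ ((2 : F) ≠ 0 ∨ Red S.θ ∨ S.θ.det ≠ 0)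

/-- Every vector orthogonal to the first layer is fixed modulo that layer. -/
def Dp : Prop := ∀ η : Fin b → F, sp S.w η = 0 → ∀ u : α → F, ∃ f : α → F,
  S.P₁ᴴ *ᵥ (lft α η *ᵥ u + S.P *ᵥ f) = 0

theorem dp_of_det (h : S.θ.det ≠ 0) : S.Dp := by
  intro η _ u
  have hC : S.Cᴴ.det ≠ 0 := by
    intro h0
    rw [θ_eq, det_smul, det_mul, h0, mul_zero, mul_zero] at h
    exact h rfl
  refine ⟨-(S.Cᴴ⁻¹ *ᵥ (S.P₁ᴴ *ᵥ (lft α η *ᵥ u))), ?_⟩
  rw [mulVec_add, mulVec_mulVec _ S.P₁ᴴ S.P, ← C_conjTranspose, mulVec_neg, mulVec_mulVec _ S.Cᴴ,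
    Matrix.mul_nonsing_inv _ (Ne.isUnit hC), one_mulVec, add_neg_cancel]

theorem tight_of_det (h : S.θ.det ≠ 0) : S.Tight := fun u hu => by
  have : u = 0 := by
    by_contra hu0
    exact h (Matrix.exists_mulVec_eq_zero_iff.1 ⟨u, hu0, hu⟩)
  rw [this, mulVec_zero]

variable [Finite F] (H : Setup M)
include H

theorem θ_ne (hnp : ¬ IsPure (1 + S.B)) : S.θ ≠ 0 := fun h =>
  hnp (H.root_ct_zero S.isRoot S.hw0 S.hw (by rw [S.θ_ct, h, smul_zero]))

theorem C_ne (hnp : ¬ IsPure (1 + S.B)) : S.Cᴴ ≠ 0 := fun h => S.θ_ne H hnp (by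
  rw [θ_eq, h, Matrix.mul_zero, smul_zero])

theorem fixed {g : GL Ix F} (hg : g ∈ S.K) {η : Fin b → F} (hη : sp S.w η = 0) {u f : α → F}
    (h : S.P₁ᴴ *ᵥ (lft α η *ᵥ u + S.P *ᵥ f) = 0) :
    (g : Matrix Ix Ix F) *ᵥ (lft α η *ᵥ u + S.P *ᵥ f) = lft α η *ᵥ u + S.P *ᵥ f := by
  have hP : S.Pᴴ *ᵥ (lft α η *ᵥ u + S.P *ᵥ f) = 0 := by
    rw [mulVec_add, mulVec_mulVec, mulVec_mulVec, S.PP, zero_mulVec, add_zero, P, lft_conjTranspose, rgt_star_lft,
      hη, zero_smul, zero_mulVec]
  exact S.K_fix hg (S.killed hP h).1 (S.killed hP h).2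

theorem exists_fixed_pair (hnp : ¬ IsPure (1 + S.B)) (η : Fin b → F) :
    ∃ u f : α → F, u ≠ 0 ∧ S.P₁ᴴ *ᵥ (lft α η *ᵥ u + S.P *ᵥ f) = 0 := by
  by_contra hc
  push Not at hc
  let Φ : (α → F) × (α → F) →ₗ[F] (α → F) :=
    ((S.P₁ᴴ * lft α η).mulVecLin).coprod S.Cᴴ.mulVecLin
  have hΦ : ∀ p, Φ p = S.P₁ᴴ *ᵥ (lft α η *ᵥ p.1 + S.P *ᵥ p.2) := fun p => by
    rw [mulVec_add, mulVec_mulVec, mulVec_mulVec, ← C_conjTranspose]
    rfl
  have h1 : ∀ p ∈ LinearMap.ker Φ, p.1 = 0 := fun p hp => by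
    by_contra h0
    exact hc p.1 p.2 h0 ((hΦ p).symm.trans hp)
  let Ψ : LinearMap.ker Φ →ₗ[F] LinearMap.ker S.Cᴴ.mulVecLin :=
    ((LinearMap.snd F _ _).domRestrict _).codRestrict _ (fun p => by
      have hp : Φ p.1 = 0 := p.2
      simp only [Φ, LinearMap.coprod_apply, h1 _ p.2, map_zero, zero_add] at hp
      exact hp)
  have hΨ : Function.Injective Ψ := fun p p' e => Subtype.ext (Prod.ext
    ((h1 _ p.2).trans (h1 _ p'.2).symm) (congrArg Subtype.val e))
  have a1 := LinearMap.finrank_le_finrank_of_injective hΨ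
  have a2 := LinearMap.finrank_range_add_finrank_ker Φ
  have a3 := Submodule.finrank_le (LinearMap.range Φ)
  rw [Module.finrank_prod, Module.finrank_fintype_fun_eq_card] at a2
  rw [Module.finrank_fintype_fun_eq_card] at a3
  have a4 : LinearMap.ker S.Cᴴ.mulVecLin = ⊤ := Submodule.eq_top_of_finrank_eq (le_antisymm (Submodule.finrank_le _) (by
    rw [Module.finrank_fintype_fun_eq_card]; omega))
  refine S.C_ne H hnp (Matrix.ext_of_mulVec_single fun j => ?_)
  rw [zero_mulVec]
  exact (LinearMap.mem_ker.1 (a4 ▸ Submodule.mem_top : (Pi.single j 1 : α → F) ∈ LinearMap.ker S.Cᴴ.mulVecLin))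

/-- An element of the plane group fixing the first layer lies on the line of the transvection. -/
theorem core [Nonempty α] (hnp : ¬ IsPure (1 + S.B)) {g : GL Ix F} (hg : g ∈ S.K)
    (hP : (g : Matrix Ix Ix F) * S.P = S.P) : ∃ r : F, star r = r ∧ g = uni S.A S.A_sq r := by
  have := H.neZero
  have hgM := S.K_inM H hg
  obtain ⟨v, -, hwv, hvw⟩ := H.exists_partner S.hw0 S.hw
  obtain ⟨a₀, h₀, hgh⟩ := H.pure_of_layer S.hw0 S.hw S.hw0 S.hw hgM
    (h := (1 : Matrix α α F)) (by rw [Matrix.mul_one]; exact hP) (by simp)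
  set c := sp v (h₀ *ᵥ S.w) with hc
  have hca : c • a₀ = 1 := by
    have e := congrArg (rgt α (star v) * ·) hP
    simp only [hgh, P, kron_lft] at e
    rwa [← Matrix.mul_assoc, rgt_star_lft, rgt_star_lft, hvw, one_smul, Matrix.smul_mul, Matrix.one_mul] at e
  have hc0 : c ≠ 0 := fun h0 => by
    rw [h0, zero_smul] at hca
    exact zero_ne_one hca
  set h := c⁻¹ • h₀ with hh
  have hg1 : (g : Matrix Ix Ix F) = (1 : Matrix α α F) ⊗ₖ h := by
    rw [hgh, ← hca, hh, smul_kronecker, kronecker_smul, smul_smul, mul_inv_cancel₀ hc0, one_smul]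
  have hhu : hᴴ * h = 1 := by
    have e := H.unit' hgM
    rw [hg1, kron_conjTranspose, ← mul_kronecker_mul, conjTranspose_one, Matrix.one_mul,
      ← one_kronecker_one (α := F) (m := α) (n := Fin b)] at e
    obtain ⟨i⟩ := ‹Nonempty α›
    ext k l
    simpa using congrFun (congrFun e (i, k)) (i, l)
  have hiso : ∀ x y, sp (h *ᵥ x) (h *ᵥ y) = sp x y := fun x y => by
    rw [sp, sp, star_mulVec, ← dotProduct_mulVec, mulVec_mulVec, hhu, one_mulVec]
  have hfix : ∀ η, sp S.w η = 0 → h *ᵥ η = η := by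
    intro η hη
    obtain ⟨u, f, hu, hf⟩ := S.exists_fixed_pair H hnp η
    have e := S.fixed H hg hη hf
    rw [mulVec_add, mulVec_mulVec, mulVec_mulVec, hP, hg1, kron_lft, Matrix.mul_one] at e
    have e2 : lft α (h *ᵥ η - η) *ᵥ u = 0 := by
      rw [sub_eq_add_neg, lft_add, ← neg_one_smul F η, lft_smul, neg_one_smul, add_mulVec, neg_mulVec,
        add_right_cancel e, add_neg_cancel]
    by_contra hne
    exact hu (lft_mulVec_inj (sub_ne_zero.2 hne) e2)
  set y := h *ᵥ v - v with hy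
  have hyw : ∀ η, sp S.w η = 0 → sp η y = 0 := fun η hη => by
    have := hiso η v
    rw [hfix η hη] at this
    rw [hy, sp_sub_right, this, sub_self]
  have hy' := eq_smul_of_perp S.hw hwv hvw hyw
  set s := sp v y with hs
  have hhs : h = 1 + s • vecMulVec S.w (star S.w) := by
    refine Matrix.ext_of_mulVec_single fun j => ?_
    set x : Fin b → F := Pi.single j 1
    have e1 : h *ᵥ (x - sp S.w x • v) = x - sp S.w x • v :=
      hfix _ (by rw [sp_sub_right, sp_smul_right, hwv]; ring)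
    have e2 : h *ᵥ v = v + y := by rw [hy]; abel
    rw [mulVec_sub, mulVec_smul, e2, sub_eq_iff_eq_add] at e1
    rw [e1, add_mulVec, one_mulVec, smul_mulVec, vmv_mulVec, smul_smul]
    conv_lhs => rw [hy']
    module
  have hskew : star s = -s := by
    have := hiso v v
    have e2 : h *ᵥ v = v + s • S.w := by
      rw [hhs, add_mulVec, one_mulVec, smul_mulVec, vmv_mulVec, hwv, one_smul]
    rw [e2, sp_add_left, sp_add_right, sp_add_right, sp_smul_left, sp_smul_left, sp_smul_right, sp_smul_right,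
      hwv, hvw, S.hw] at this
    linear_combination this
  refine ⟨s / S.d, by rw [star_div₀, hskew, S.hd, neg_div_neg_eq], Units.ext ?_⟩
  change _ = 1 + (s / S.d) • S.A
  rw [hg1, hhs, kronecker_add, one_kronecker_one, A, rootA_kron, kronecker_smul, kronecker_smul, smul_smul,
    div_mul_cancel₀ _ S.hd0]

/-- The first layer under an element normalising the line. -/
theorem norm_entries [Nonempty α] (ht : S.Tight) {g : GL Ix F} (hg : g ∈ S.K) {c : F}
    (hA : (g : Matrix Ix Ix F) * S.A * (g : Matrix Ix Ix F)ᴴ = c • S.A) :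
    ∃ a : Sx S.θ, (g : Matrix Ix Ix F) * S.P = S.P * (a : Matrix α α F) ∧
      (a : Matrix α α F)ᴴ = (a : Matrix α α F) ∧ (a : Matrix α α F) * (a : Matrix α α F) = c • 1 ∧
      ∀ v, S.θ *ᵥ v = 0 → (a : Matrix α α F) *ᵥ v = v := by
  obtain ⟨ρ, hρ⟩ := S.exists_rho hg
  obtain ⟨v, -, hwv, hvw⟩ := H.exists_partner S.hw0 S.hw
  have hgM := S.K_inM H hg
  have hvP : rgt α (star v) * S.P = 1 := by rw [P, rgt_star_lft, hvw, one_smul]
  have hPv : S.Pᴴ * lft α v = 1 := by rw [P, lft_conjTranspose, rgt_star_lft, hwv, one_smul]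
  set X := (g : Matrix Ix Ix F) with hX
  have hPP : X * S.P * (X * S.P)ᴴ = c • (S.P * S.Pᴴ) := by
    rw [A_eq, Matrix.mul_smul, Matrix.smul_mul, smul_comm c] at hA
    rw [← smul_right_injective (Matrix Ix Ix F) S.hd0 |>.eq_iff, ← hA, conjTranspose_mul]
    simp only [Matrix.mul_assoc]
  have hgP : ∃ R : Matrix α α F, X * S.P = S.P * R := by
    refine ⟨c • (S.Pᴴ * (X * lft α v)), ?_⟩
    have e : (X * S.P)ᴴ * (X * lft α v) = 1 := by
      rw [conjTranspose_mul, Matrix.mul_assoc, ← Matrix.mul_assoc Xᴴ, H.unit' hgM, Matrix.one_mul, hPv]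
    rw [Matrix.mul_smul, ← Matrix.mul_assoc, ← Matrix.smul_mul, ← hPP, Matrix.mul_assoc, e, Matrix.mul_one]
  obtain ⟨R, hR⟩ := hgP
  have hrel : X * S.P = S.P * ((ρ 0 0 : Sx S.θ) : Matrix α α F) + S.B * S.P * ((ρ 1 0 : Sx S.θ) : Matrix α α F) :=
    (S.Khat_rel hρ).1
  have hθ : S.θ * ((ρ 1 0 : Sx S.θ) : Matrix α α F) = 0 := by
    have e := congrArg (S.Pᴴ * ·) hrel
    simp only [hR, Matrix.mul_add, ← Matrix.mul_assoc, S.PP, Matrix.zero_mul, zero_add] at e
    have eθ : S.θ = S.d • (S.Pᴴ * S.B * S.P) := by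
      rw [P, lft_conjTranspose]; rfl
    conv_lhs => arg 1; rw [eθ]
    rw [Matrix.smul_mul, ← e, smul_zero]
  have hBP : S.B * S.P * ((ρ 1 0 : Sx S.θ) : Matrix α α F) = 0 := by
    rw [S.BP_eq, Matrix.smul_mul, Matrix.mul_assoc]
    have e : S.Cᴴ * ((ρ 1 0 : Sx S.θ) : Matrix α α F) = 0 := Matrix.ext_of_mulVec_single fun j => by
      rw [← mulVec_mulVec, Matrix.zero_mulVec]
      exact ht _ (by rw [mulVec_mulVec, hθ, Matrix.zero_mulVec])
    rw [e, Matrix.mul_zero, smul_zero]
  rw [hBP, add_zero] at hrel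
  refine ⟨ρ 0 0, hrel, S.Khat_herm hρ 0 0, ?_, fun v hv => S.Khat_fix hρ hv⟩
  rw [hrel, conjTranspose_mul, S.Khat_herm hρ 0 0] at hPP
  have := congrArg (fun T => rgt α (star v) * T * lft α v) hPP
  simp only [← Matrix.mul_assoc, Matrix.smul_mul, Matrix.mul_smul, hvP, Matrix.one_mul] at this
  simp only [Matrix.mul_assoc, hPv, Matrix.mul_one] at this
  exact this

/-- In a fine frame with the fixed vectors an element moving the first layer within itself is scalar on it. -/
theorem scalar [Nonempty α] (hD : S.Dp) {g : GL Ix F} (hg : g ∈ S.K) {a : Matrix α α F}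
    (hP : (g : Matrix Ix Ix F) * S.P = S.P * a) (hu : IsUnit a.det) :
    ∃ l : F, a = l • 1 ∧ ∀ η, sp S.w η = 0 →
      ∃ m : F, (g : Matrix Ix Ix F) * lft α η = lft α η + m • S.P := by
  have := H.neZero
  have hgM := S.K_inM H hg
  obtain ⟨v, -, hwv, hvw⟩ := H.exists_partner S.hw0 S.hw
  obtain ⟨a₀, h₀, hgh⟩ := H.pure_of_layer S.hw0 S.hw S.hw0 S.hw hgM hP hu
  set c := sp v (h₀ *ᵥ S.w) with hc
  have hca : c • a₀ = a := by
    have e := congrArg (rgt α (star v) * ·) hP
    simp only [hgh, P, kron_lft] at e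
    rw [← Matrix.mul_assoc, rgt_star_lft, ← Matrix.mul_assoc, rgt_star_lft, hvw, one_smul, Matrix.smul_mul,
      Matrix.one_mul, Matrix.one_mul] at e
    exact e
  have hc0 : c ≠ 0 := fun h0 => by
    rw [h0, zero_smul] at hca
    rw [← hca, det_zero] at hu
    exact not_isUnit_zero hu
  set h := c⁻¹ • h₀ with hh
  have hg1 : (g : Matrix Ix Ix F) = a ⊗ₖ h := by
    rw [hgh, ← hca, hh, smul_kronecker, kronecker_smul, smul_smul, mul_inv_cancel₀ hc0, one_smul]
  have key : ∀ η η', sp S.w η = 0 → sp S.w η' = 0 → sp η' (h *ᵥ η) • a = sp η' η • (1 : Matrix α α F) := by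
    intro η η' hη hη'
    refine Matrix.ext_of_mulVec_single fun j => ?_
    obtain ⟨f, hf⟩ := hD η hη (Pi.single j 1)
    have e := S.fixed H hg hη hf
    rw [mulVec_add, mulVec_mulVec, mulVec_mulVec, hP, hg1, kron_lft, P] at e
    have e2 := congrArg (rgt α (star η') *ᵥ ·) e
    simp only [mulVec_add, mulVec_mulVec, ← Matrix.mul_assoc, rgt_star_lft, sp_zero_comm.1 hη', zero_smul,
      Matrix.zero_mul, zero_mulVec, add_zero, Matrix.smul_mul, Matrix.one_mul] at e2
    exact e2
  obtain ⟨η, η', hη, hη', hp⟩ : ∃ η η', sp S.w η = 0 ∧ sp S.w η' = 0 ∧ sp η' η ≠ 0 := by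
    by_contra hc'
    push Not at hc'
    obtain ⟨U, hU, hUw⟩ := H99.TensorU.finrank_perp ![S.w]
    have hle : U ≤ Submodule.span F {S.w} := fun η hη => by
      rw [eq_smul_of_perp S.hw hwv hvw (e := η) fun η' hη' => hc' η η' (hUw η hη 0) hη']
      exact Submodule.smul_mem _ _ (Submodule.mem_span_singleton_self _)
    have := Submodule.finrank_mono hle
    rw [finrank_span_singleton S.hw0] at this
    rw [Fintype.card_fin] at hU
    have := H.three
    omega
  have hp' : sp η' (h *ᵥ η) ≠ 0 := fun h0 => by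
    have := key η η' hη hη'
    rw [h0, zero_smul, eq_comm, smul_eq_zero] at this
    exact this.elim hp one_ne_zero
  set l := sp η' η / sp η' (h *ᵥ η) with hl
  have hal : a = l • 1 := by
    rw [hl, div_eq_inv_mul, mul_smul, ← key η η' hη hη', smul_smul, inv_mul_cancel₀ hp', one_smul]
  refine ⟨l, hal, fun η hη => ?_⟩
  set e := l • (h *ᵥ η) - η with he
  have heq := eq_smul_of_perp S.hw hwv hvw (e := e) fun η' hη' => by
    have := key η η' hη hη'
    rw [hal, smul_smul] at this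
    rw [he, sp_sub_right, sp_smul_right, sub_eq_zero, mul_comm]
    exact smul_left_injective F (one_ne_zero : (1 : Matrix α α F) ≠ 0) this
  refine ⟨sp v e, ?_⟩
  rw [hg1, kron_lft, hal, Matrix.mul_smul, Matrix.mul_one, ← lft_smul, P, ← lft_smul, ← lft_add, ← heq, he,
    add_sub_cancel]

/-- An element centralising the transvection fixes its layer. -/
theorem cent [Nonempty α] (hf : S.Fine) {g : GL Ix F} (hg : g ∈ S.K)
    (hA : (g : Matrix Ix Ix F) * S.A * (g : Matrix Ix Ix F)ᴴ = S.A)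
    (hn : (2 : F) = 0 ∨ ∃ n : ℕ, Odd n ∧ g ^ n = 1) : (g : Matrix Ix Ix F) * S.P = S.P := by
  obtain ⟨a, hP, -, ha2, -⟩ := S.norm_entries H hf.1 hg (c := 1) (by rw [one_smul]; exact hA)
  rw [one_smul] at ha2
  suffices h : (a : Matrix α α F) = 1 by rw [hP, h, Matrix.mul_one]
  by_cases h2 : (2 : F) = 0
  · rcases hf.2 with h | h | h
    · exact absurd h2 h
    · have e : (a - 1) * (a - 1) = 0 := by
        refine Subtype.ext ?_
        simp only [Subalgebra.coe_mul, Subalgebra.coe_sub, OneMemClass.coe_one, ZeroMemClass.coe_zero,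
          Matrix.sub_mul, Matrix.mul_sub, Matrix.one_mul, Matrix.mul_one, ha2]
        have e2 : (2 : F) • ((1 : Matrix α α F) - (a : Matrix α α F)) = 0 := by rw [h2, zero_smul]
        rw [← e2]; module
      exact congrArg Subtype.val (sub_eq_zero.1 (h _ e))
    · obtain ⟨l, hl, -⟩ := S.scalar H (S.dp_of_det h) hg hP (IsUnit.of_mul_eq_one _ (by
        rw [← det_mul, ha2, det_one]))
      rw [hl, Matrix.smul_mul, Matrix.one_mul, smul_smul] at ha2
      have hll : l * l = 1 := smul_left_injective F (one_ne_zero : (1 : Matrix α α F) ≠ 0) (by simpa using ha2)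
      have hl1 : l = 1 := by
        have : (l - 1) * (l - 1) = 0 := by linear_combination hll - (l - 1) * h2
        exact sub_eq_zero.1 (mul_self_eq_zero.1 this)
      rw [hl, hl1, one_smul]
  · obtain ⟨n, hn', hgn⟩ := hn.resolve_left h2
    obtain ⟨v, -, hwv, hvw⟩ := H.exists_partner S.hw0 S.hw
    have hpow : ∀ i : ℕ, (g : Matrix Ix Ix F) ^ i * S.P = S.P * (a : Matrix α α F) ^ i := fun i => by
      induction i with
      | zero => simp
      | succ i ih =>
        rw [pow_succ, Matrix.mul_assoc, hP, ← Matrix.mul_assoc, ih, Matrix.mul_assoc, ← pow_succ]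
    have e := hpow n
    rw [← Units.val_pow_eq_pow_val, hgn, Units.val_one, Matrix.one_mul] at e
    have e2 := congrArg (rgt α (star v) * ·) e
    simp only [← Matrix.mul_assoc, P, rgt_star_lft, hvw, one_smul, Matrix.one_mul] at e2
    obtain ⟨k, hk⟩ := hn'
    rw [hk, pow_succ, pow_mul, pow_two, ha2, one_pow, Matrix.one_mul] at e2
    exact e2.symm

/-- A normalising element that moves the layer: the invariant is regular and the root lies over a plane. -/
theorem torus [Nonempty α] (ht : S.Tight) (hD : S.Dp) {g : GL Ix F} (hg : g ∈ S.K) {c : F} (hc : c ≠ 0)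
    (hA : (g : Matrix Ix Ix F) * S.A * (g : Matrix Ix Ix F)ᴴ = c • S.A)
    (hne : (g : Matrix Ix Ix F) * S.P ≠ S.P) :
    S.θ.det ≠ 0 ∧ ∀ η, sp S.w η = 0 → ∃ k : F, S.P₁ᴴ * lft α (η + k • S.w) = 0 := by
  obtain ⟨a, hP, -, ha2, hfix⟩ := S.norm_entries H ht hg hA
  have hu : IsUnit (a : Matrix α α F).det := by
    refine isUnit_iff_ne_zero.2 fun h0 => ?_
    have := congrArg Matrix.det ha2
    rw [det_mul, h0, mul_zero, det_smul, det_one, mul_one] at this
    exact hc (eq_zero_of_pow_eq_zero this.symm)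
  obtain ⟨l, hl, hη⟩ := S.scalar H hD hg hP hu
  have hl1 : l ≠ 1 := fun h => hne (by rw [hP, hl, h, one_smul, Matrix.mul_one])
  refine ⟨fun h0 => ?_, fun η hwη => ?_⟩
  · obtain ⟨v, hv0, hv⟩ := Matrix.exists_mulVec_eq_zero_iff.2 h0
    have e := hfix v hv
    rw [hl, smul_mulVec, one_mulVec] at e
    refine hv0 ((smul_eq_zero.1 (show (l - 1) • v = 0 by rw [sub_smul, one_smul, e, sub_self])).resolve_left
      (sub_ne_zero.2 hl1))
  · obtain ⟨m, hm⟩ := hη η hwη
    refine ⟨m / (1 - l), Matrix.ext_of_mulVec_single fun j => ?_⟩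
    set k := m / (1 - l) with hk
    have hk' : m + k * l = k := by
      have := sub_ne_zero.2 (Ne.symm hl1)
      rw [hk]; field_simp; ring
    have hwη' : sp S.w (η + k • S.w) = 0 := by rw [sp_add_right, sp_smul_right, hwη, S.hw]; ring
    obtain ⟨f, hf⟩ := hD _ hwη' (Pi.single j 1)
    have e := S.fixed H hg hwη' hf
    have hgη : (g : Matrix Ix Ix F) * lft α (η + k • S.w) = lft α (η + k • S.w) := by
      rw [lft_add, lft_smul, ← show S.P = lft α S.w from rfl, Matrix.mul_add, Matrix.mul_smul, hm, hP, hl,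
        Matrix.mul_smul, Matrix.mul_one, smul_smul, add_assoc, ← add_smul, hk']
    rw [mulVec_add, mulVec_mulVec, mulVec_mulVec, hgη, hP, hl, Matrix.mul_smul, Matrix.mul_one] at e
    have e2 := add_left_cancel e
    rw [smul_mulVec] at e2
    have hf0 : f = 0 := by
      obtain ⟨v, -, -, hvw⟩ := H.exists_partner S.hw0 S.hw
      have e3 := congrArg (rgt α (star v) *ᵥ ·) e2
      simp only [mulVec_smul, mulVec_mulVec, P, rgt_star_lft, hvw, one_smul, one_mulVec] at e3
      exact (smul_eq_zero.1 (show (l - 1) • f = 0 by rw [sub_smul, one_smul, e3, sub_self])).resolve_left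
        (sub_ne_zero.2 hl1)
    rw [hf0, mulVec_zero, add_zero, mulVec_mulVec] at hf
    rw [hf, Matrix.zero_mulVec]

end Frame

end Cfsg.Agent.H58.Wreath.SU
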