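import Cfsg.Agent.H58.Wreath.SU.Setup
import Cfsg.Agent.H99.TensorU.Purity

/-!
When the layers are scalar: elements mapping a layer to a layer are pure tensors, the others have no vanishing
contraction; for a right factor of dimension three as well.
-/

set_option autoImplicit false
set_option linter.unusedSectionVars false

namespace Cfsg.Agent.H58.Wreath.SU

open Matrix
open Cfsg.Agent.H99.Tensor
open Cfsg.Agent.H99.TensorU (sp ct el nil el_mul el_scalar root_el partner exists_trace exists_skew exists_iso_perp exists_iso_in lft_conjTranspose rgt_conjTranspose rgt_star_smul kron_conjTranspose vmv_conjTranspose vmv_mul vmv_mulVec root_unitary trans_unitary sp_star sp_zero_comm sp_smul_right sp_smul_left sp_neg_right sp_neg_left sp_add_left sp_add_right sp_sub_right sp_sub_left sp_zero_left sp_zero_right ct_conjTranspose)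
open scoped Kronecker

variable {F : Type*} [Field F] [StarRing F] [Finite F] {α : Type} [Fintype α] [DecidableEq α] {b : ℕ}

local notation "Ix" => α × Fin b

variable {M : Subgroup (GL (α × Fin b) F)} (H : Setup M)
include H

theorem Setup.unit {X : Matrix Ix Ix F} (hX : InM M X) : X * Xᴴ = 1 := by
  obtain ⟨y, hy, rfl⟩ := hX
  exact H.iso y hy

theorem Setup.unit' {X : Matrix Ix Ix F} (hX : InM M X) : Xᴴ * X = 1 := mul_eq_one_comm.1 (H.unit hX)

theorem Setup.inv {X : Matrix Ix Ix F} (hX : InM M X) : InM M Xᴴ := hX.inv (H.unit hX)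

theorem Setup.conj {A X : Matrix Ix Ix F} (hA : InM M (1 + A)) (hX : InM M X) : InM M (1 + X * A * Xᴴ) :=
  hA.conj hX (H.unit hX)

theorem Setup.neZero : NeZero b := ⟨by have := H.three; omega⟩

/-- The root elements of the second factor. -/
theorem Setup.root {w η : Fin b → F} {c : F} (hw : sp w w = 0) (hη : sp w η = 0)
    (hc : c + star c + sp η η = 0) : InM M (1 + (1 : Matrix α α F) ⊗ₖ nil w η c) := by
  rw [← one_kronecker_one (α := F) (m := α) (n := Fin b), ← kronecker_add]
  exact H.right _ (root_unitary hw hη hc).1 (root_unitary hw hη hc).2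

theorem Setup.trans {w : Fin b → F} {d : F} (hw : sp w w = 0) (hd : star d = -d) :
    InM M (1 + (d • (1 : Matrix α α F)) ⊗ₖ vecMulVec w (star w)) := by
  have := H.root (η := 0) (c := d) hw (sp_zero_right w) (by rw [hd, sp_zero_left]; ring)
  rw [nil, star_zero, vecMulVec_zero, zero_vecMulVec, sub_zero, zero_add, kronecker_smul] at this
  rwa [smul_kronecker]


theorem Setup.good_el {z : Fin b → F} (hz0 : z ≠ 0) (hz : sp z z = 0) {G : Matrix α α F} (h : InM M (el z 0 G)) :
    ∃ c : F, G = c • (1 : Matrix α α F) :=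
  H.good z G hz0 hz (by rwa [el_scalar] at h)

/-- An element mapping a layer to a layer is a similitude on it. -/
theorem Setup.layer_sq [Nonempty α] {z z₂ : Fin b → F} (hz : sp z z = 0) (hz₂0 : z₂ ≠ 0) (hz₂ : sp z₂ z₂ = 0)
    {X : Matrix Ix Ix F} (hX : InM M X) {h : Matrix α α F} (hh : X * lft α z = lft α z₂ * h)
    (hdet : IsUnit h.det) :
    ∃ μ : F, μ ≠ 0 ∧ h * hᴴ = μ • (1 : Matrix α α F) ∧ hᴴ * h = μ • (1 : Matrix α α F) := by
  obtain ⟨d, hd0, hd⟩ := exists_skew H.ns
  have hh' : hᴴ * rgt α (star z₂) = rgt α (star z) * Xᴴ := by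
    have := congrArg Matrix.conjTranspose hh
    rw [conjTranspose_mul, conjTranspose_mul, lft_conjTranspose, lft_conjTranspose] at this
    exact this.symm
  obtain ⟨μ, hμ⟩ : ∃ μ : F, d • (h * hᴴ) = μ • (1 : Matrix α α F) := by
    have h1 := H.trans hz hd
    rw [smul_kronecker, ← lft_mul_rgt] at h1
    have h2 := H.conj h1 hX
    refine H.good z₂ _ hz₂0 hz₂ ?_
    convert h2 using 2
    rw [← lft_mid_rgt, Matrix.mul_smul, Matrix.smul_mul, Matrix.mul_smul, Matrix.smul_mul, ← Matrix.mul_assoc X, hh,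
      Matrix.mul_assoc _ (rgt α (star z)), ← hh']
    simp only [Matrix.mul_assoc]
  have hhh : h * hᴴ = (μ / d) • (1 : Matrix α α F) := by
    rw [div_eq_inv_mul, mul_smul, ← hμ, smul_smul, inv_mul_cancel₀ hd0, one_smul]
  have hμ0 : μ / d ≠ 0 := by
    intro h0
    have := congrArg Matrix.det hhh
    rw [h0, zero_smul, det_mul, det_zero, det_conjTranspose] at this
    exact (hdet.mul hdet.star).ne_zero this
  refine ⟨μ / d, hμ0, hhh, ?_⟩
  have e : ((μ / d)⁻¹ • hᴴ) * h = 1 := mul_eq_one_comm.1 (by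
    rw [Matrix.mul_smul, hhh, smul_smul, inv_mul_cancel₀ hμ0, one_smul])
  rw [Matrix.smul_mul] at e
  rw [← e, smul_smul, mul_inv_cancel₀ hμ0, one_smul]

/-- The middle part of an element of the unipotent radical comes from the second factor. -/
theorem Setup.el_contract {z : Fin b → F} (hz0 : z ≠ 0) (hz : sp z z = 0) {A : Matrix Ix α F} {G : Matrix α α F}
    (hA : rgt α (star z) * A = 0) (h : InM M (el z A G)) {η : Fin b → F} (hη : sp z η = 0) :
    ∃ c : F, rgt α (star η) * A = c • (1 : Matrix α α F) := by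
  obtain ⟨d, hd0, hd⟩ := exists_skew H.ns
  have key : ∀ η : Fin b → F, sp z η = 0 →
      ∃ c : F, rgt α (star η) * A - Aᴴ * lft α η = c • (1 : Matrix α α F) := by
    intro η hη
    obtain ⟨t, ht⟩ := exists_trace H.ns (a := -(sp η η)) (by rw [star_neg, sp_star])
    have hR := H.root (c := t) hz hη (by linear_combination ht)
    rw [root_el] at hR
    have hlη : rgt α (star z) * lft α η = 0 := by
      rw [rgt_mul_lft]; exact (congrArg (· • _) hη).trans (zero_smul _ _)
    have h1 := h.mul hR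
    have h2 := hR.mul h
    rw [el_mul hz G (t • 1) hA hlη] at h1
    rw [el_mul hz (t • 1) G hlη hA, add_comm (lft α η) A] at h2
    set D := rgt α (star η) * A - Aᴴ * lft α η with hD
    have hfac : el z (A + lft α η) (G + t • 1 - Aᴴ * lft α η) =
        el z 0 D * el z (A + lft α η) (t • 1 + G - (lft α η)ᴴ * A) := by
      rw [el_mul hz _ _ (Matrix.mul_zero _) (by rw [Matrix.mul_add, hA, hlη, add_zero]), zero_add,
        conjTranspose_zero, Matrix.zero_mul, sub_zero, hD, lft_conjTranspose]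
      congr 1
      abel
    refine H.good_el hz0 hz ?_
    have := h1.mul (H.inv h2)
    rwa [hfac, Matrix.mul_assoc, H.unit h2, Matrix.mul_one] at this
  obtain ⟨ξ, hξ⟩ := H.ns
  obtain ⟨c₁, h1⟩ := key η hη
  obtain ⟨c₂, h2⟩ := key (ξ • η) (by rw [sp_smul_right, hη, mul_zero])
  rw [rgt_star_smul, lft_smul, Matrix.smul_mul, Matrix.mul_smul] at h2
  refine ⟨(c₂ - ξ * c₁) / (star ξ - ξ), ?_⟩
  have h3 : (star ξ - ξ) • (rgt α (star η) * A) = (c₂ - ξ * c₁) • (1 : Matrix α α F) := by
    calc (star ξ - ξ) • (rgt α (star η) * A)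
        = (star ξ • (rgt α (star η) * A) - ξ • (Aᴴ * lft α η)) -
          ξ • (rgt α (star η) * A - Aᴴ * lft α η) := by module
      _ = _ := by rw [h1, h2]; module
  rw [div_eq_inv_mul, mul_smul, ← h3, smul_smul, inv_mul_cancel₀ (sub_ne_zero.2 hξ), one_smul]

/-- The middle part decomposes. -/
theorem Setup.el_decomp {z : Fin b → F} (hz0 : z ≠ 0) (hz : sp z z = 0) {A : Matrix Ix α F} {c : F}
    (hA : rgt α (star z) * A = 0) (h : InM M (el z A (c • 1))) :
    ∃ (u : Fin b → F) (K : Matrix α α F) (s : F),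
      A = lft α u + lft α z * K ∧ K - Kᴴ = s • (1 : Matrix α α F) := by
  obtain ⟨z', hz', h1, h2⟩ := partner H.ns hz0 hz
  set K := rgt α (star z') * A with hK
  obtain ⟨u, hu⟩ := eq_lft (A - lft α z * K) fun φ => by
    set μ₀ := star φ - sp z (star φ) • z' with hμ₀
    have hμz : sp z μ₀ = 0 := by rw [hμ₀, sp_sub_right, sp_smul_right, h1]; ring
    obtain ⟨e, he⟩ := H.el_contract hz0 hz hA h hμz
    refine ⟨e, ?_⟩
    have e1 : φ ⬝ᵥ z = star (sp z (star φ)) := by rw [sp_star, sp, star_star]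
    have e2 : rgt α (star μ₀) = rgt α φ + (-(φ ⬝ᵥ z)) • rgt α (star z') := by
      rw [hμ₀, sub_eq_add_neg, ← neg_smul, star_add, star_star, rgt_add, rgt_star_smul, star_neg, e1]
    rw [← he, e2, hK, Matrix.mul_sub, ← Matrix.mul_assoc, rgt_mul_lft, Matrix.add_mul, Matrix.smul_mul,
      Matrix.smul_mul, Matrix.one_mul, neg_smul, sub_eq_add_neg]
  have hsum : A = lft α u + lft α z * K := eq_add_of_sub_eq hu
  rcases isEmpty_or_nonempty α with hα | ⟨⟨i⟩⟩
  · exact ⟨u, K, 0, hsum, by ext a; exact isEmptyElim a⟩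
  have hu0 : sp z u = 0 := by
    have := congrArg (rgt α (star z) * ·) hu
    rw [Matrix.mul_sub, hA, ← Matrix.mul_assoc, rgt_mul_lft, rgt_mul_lft] at this
    have hzz : star z ⬝ᵥ z = 0 := hz
    rw [hzz, zero_smul, Matrix.zero_mul, sub_zero] at this
    simpa [sp] using (congrFun (congrFun this i) i).symm
  obtain ⟨t, ht⟩ := exists_trace H.ns (a := -(sp (-u) (-u))) (by rw [star_neg, sp_star])
  have hu0' : sp z (-u) = 0 := by rw [sp_neg_right, hu0, neg_zero]
  have hR := H.root (c := t) hz hu0' (by linear_combination ht)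
  rw [root_el] at hR
  have hlu : rgt α (star z) * lft α (-u) = 0 := by
    rw [rgt_mul_lft]; exact (congrArg (· • _) hu0').trans (zero_smul _ _)
  have h3 := h.mul hR
  rw [el_mul hz (c • 1) (t • 1) hA hlu] at h3
  have e1 : Aᴴ * lft α (-u) = (sp u (-u)) • (1 : Matrix α α F) := by
    rw [hsum, conjTranspose_add, conjTranspose_mul, lft_conjTranspose, lft_conjTranspose, Matrix.add_mul,
      Matrix.mul_assoc, rgt_mul_lft, hlu, Matrix.mul_zero, add_zero, sp]
  have e2 : A + lft α (-u) = lft α z * K := by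
    rw [hsum, add_right_comm, ← lft_add, add_neg_cancel, lft_zero, zero_add]
  rw [e1, e2] at h3
  have e3 : el z (lft α z * K) (c • (1 : Matrix α α F) + t • 1 - sp u (-u) • 1) =
      el z 0 ((K - Kᴴ) + (c + t - sp u (-u)) • 1) := by
    simp only [el, conjTranspose_mul, lft_conjTranspose, conjTranspose_zero, Matrix.mul_add, Matrix.add_mul,
      Matrix.mul_sub, Matrix.sub_mul, Matrix.mul_assoc, Matrix.zero_mul, Matrix.mul_zero, add_smul, sub_smul]
    abel
  rw [e3] at h3
  obtain ⟨s, hs⟩ := H.good_el hz0 hz h3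
  exact ⟨u, K, s - (c + t - sp u (-u)), hsum, by rw [sub_smul, ← hs]; abel⟩

/-- The middle part of an element whose multiples occur comes from the second factor. -/
theorem Setup.el_std {z : Fin b → F} (hz0 : z ≠ 0) (hz : sp z z = 0) {A : Matrix Ix α F} {c c' ξ : F}
    (hA : rgt α (star z) * A = 0) (hξ : star ξ ≠ ξ) (h : InM M (el z A (c • 1)))
    (h' : InM M (el z (ξ • A) (c' • 1))) : ∃ u : Fin b → F, A = lft α u := by
  rcases isEmpty_or_nonempty α with hα | ⟨⟨i⟩⟩
  · exact ⟨0, by ext p; exact isEmptyElim p.1⟩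
  obtain ⟨u, K, s, hu, hs⟩ := H.el_decomp hz0 hz hA h
  obtain ⟨u', K', s', hu', hs'⟩ := H.el_decomp hz0 hz (A := ξ • A)
    (by rw [Matrix.mul_smul, hA, smul_zero]) h'
  obtain ⟨z', hz', h1, h2⟩ := partner H.ns hz0 hz
  have h2' : star z' ⬝ᵥ z = 1 := h2
  have eK := congrArg (rgt α (star z') * ·) hu
  have eK' := congrArg (rgt α (star z') * ·) hu'
  simp only [Matrix.mul_add, ← Matrix.mul_assoc, rgt_mul_lft, h2', one_smul, Matrix.one_mul] at eK eK'
  set κ := star z' ⬝ᵥ u
  set κ' := star z' ⬝ᵥ u'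
  rw [Matrix.mul_smul, eK] at eK'
  have hK' : K' = ξ • K + (ξ * κ - κ') • (1 : Matrix α α F) :=
    add_left_cancel (a := κ' • (1 : Matrix α α F)) (by rw [← eK']; module)
  rw [hK', conjTranspose_add, conjTranspose_smul, conjTranspose_smul, conjTranspose_one] at hs'
  have h3 : (ξ - star ξ) • K = (s' - (ξ * κ - κ') + star (ξ * κ - κ') - star ξ * s) • (1 : Matrix α α F) := by
    calc (ξ - star ξ) • K
        = (ξ • K + (ξ * κ - κ') • 1 - (star ξ • Kᴴ + star (ξ * κ - κ') • 1)) -
          (ξ * κ - κ') • 1 + star (ξ * κ - κ') • 1 - star ξ • (K - Kᴴ) := by module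
      _ = _ := by rw [hs', hs]; module
  obtain ⟨k, hk⟩ : ∃ k : F, K = k • (1 : Matrix α α F) :=
    ⟨(s' - (ξ * κ - κ') + star (ξ * κ - κ') - star ξ * s) / (ξ - star ξ), by
      rw [div_eq_inv_mul, mul_smul, ← h3, smul_smul, inv_mul_cancel₀ (sub_ne_zero.2 (Ne.symm hξ)), one_smul]⟩
  exact ⟨u + k • z, by rw [hu, hk, Matrix.mul_smul, Matrix.mul_one, lft_add, lft_smul]⟩

/-- An element mapping a layer to a layer maps the neighbouring layers to layers. -/
theorem Setup.layer_image {z z₂ : Fin b → F} (hz0 : z ≠ 0) (hz : sp z z = 0) (hz₂0 : z₂ ≠ 0)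
    (hz₂ : sp z₂ z₂ = 0) {X : Matrix Ix Ix F} (hX : InM M X) {h : Matrix α α F} (hh : X * lft α z = lft α z₂ * h)
    (hdet : IsUnit h.det) {η : Fin b → F} (hη : sp z η = 0) :
    ∃ u : Fin b → F, X * lft α η = lft α u * h := by
  rcases isEmpty_or_nonempty α with hα | ⟨⟨i⟩⟩
  · exact ⟨0, by ext p; exact isEmptyElim p.1⟩
  have : Nonempty α := ⟨i⟩
  obtain ⟨d, hd0, hd⟩ := exists_skew H.ns
  have hh' : hᴴ * rgt α (star z₂) = rgt α (star z) * Xᴴ := by
    have := congrArg Matrix.conjTranspose hh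
    rw [conjTranspose_mul, conjTranspose_mul, lft_conjTranspose, lft_conjTranspose] at this
    exact this.symm
  -- a scalar product
  obtain ⟨μ, hμ⟩ : ∃ μ : F, d • (h * hᴴ) = μ • (1 : Matrix α α F) := by
    have h1 := H.trans (α := α) hz hd
    rw [smul_kronecker, ← lft_mul_rgt] at h1
    have h2 := H.conj h1 hX
    refine H.good z₂ _ hz₂0 hz₂ ?_
    convert h2 using 2
    rw [← lft_mid_rgt, Matrix.mul_smul, Matrix.smul_mul, Matrix.mul_smul, Matrix.smul_mul, ← Matrix.mul_assoc X, hh,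
      Matrix.mul_assoc _ (rgt α (star z)), ← hh']
    simp only [Matrix.mul_assoc]
  have hhh : h * hᴴ = (μ / d) • (1 : Matrix α α F) := by
    rw [div_eq_inv_mul, mul_smul, ← hμ, smul_smul, inv_mul_cancel₀ hd0, one_smul]
  have hhu : IsUnit hᴴ.det := by rw [det_conjTranspose]; exact hdet.star
  have hμ0 : μ / d ≠ 0 := by
    intro h0
    have := congrArg Matrix.det hhh
    rw [h0, zero_smul, det_mul, det_zero] at this
    exact (hdet.mul hhu).ne_zero this
  have hA : ∀ η, sp z η = 0 → rgt α (star z₂) * (X * lft α η * hᴴ) = 0 := by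
    intro η hη
    have e : hᴴ * (rgt α (star z₂) * (X * lft α η * hᴴ)) = 0 := by
      rw [← Matrix.mul_assoc, hh', Matrix.mul_assoc, ← Matrix.mul_assoc Xᴴ, ← Matrix.mul_assoc Xᴴ, H.unit' hX,
        Matrix.one_mul, ← Matrix.mul_assoc, rgt_mul_lft]
      exact (congrArg (fun s : F => s • (1 : Matrix α α F) * hᴴ) hη).trans (by simp)
    have := congrArg ((hᴴ)⁻¹ * ·) e
    rwa [← Matrix.mul_assoc, Matrix.nonsing_inv_mul _ hhu, Matrix.one_mul, Matrix.mul_zero] at this
  have hel : ∀ η, sp z η = 0 → ∃ c : F, InM M (el z₂ (X * lft α η * hᴴ) (c • 1)) := by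
    intro η hη
    obtain ⟨t, ht⟩ := exists_trace H.ns (a := -(sp η η)) (by rw [star_neg, sp_star])
    have h1 := H.root (α := α) (c := t) hz hη (by linear_combination ht)
    refine ⟨t * (μ / d), ?_⟩
    set N := (1 : Matrix α α F) ⊗ₖ nil z η t with hN
    have h2 := H.conj h1 hX
    convert h2 using 1
    have e : N = lft α η * rgt α (star z) - lft α z * rgt α (star η) + lft α z * (t • (1 : Matrix α α F)) *
        rgt α (star z) := by
      have := root_el (α := α) z η t
      rw [el, lft_conjTranspose, ← hN, add_sub_assoc, add_assoc] at this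
      exact add_left_cancel this
    rw [e, el, mul_smul, ← hhh, conjTranspose_mul, conjTranspose_mul, conjTranspose_conjTranspose, lft_conjTranspose]
    simp only [Matrix.mul_add, Matrix.add_mul, Matrix.mul_sub, Matrix.sub_mul, Matrix.mul_smul, Matrix.smul_mul,
      Matrix.mul_one]
    simp only [← Matrix.mul_assoc, hh]
    simp only [Matrix.mul_assoc, ← hh']
    abel
  obtain ⟨ξ, hξ⟩ := H.ns
  obtain ⟨c, hc⟩ := hel η hη
  obtain ⟨c', hc'⟩ := hel (ξ • η) (by rw [sp_smul_right, hη, mul_zero])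
  rw [lft_smul, Matrix.mul_smul, Matrix.smul_mul] at hc'
  obtain ⟨u, hu⟩ := H.el_std hz₂0 hz₂ (hA η hη) hξ hc hc'
  refine ⟨(μ / d)⁻¹ • u, ?_⟩
  have hhh' : hᴴ * h = (μ / d) • (1 : Matrix α α F) := by
    have e : ((μ / d)⁻¹ • hᴴ) * h = 1 := mul_eq_one_comm.1 (by
      rw [Matrix.mul_smul, hhh, smul_smul, inv_mul_cancel₀ hμ0, one_smul])
    rw [Matrix.smul_mul] at e
    rw [← e, smul_smul, mul_inv_cancel₀ hμ0, one_smul]
  calc X * lft α η = (μ / d)⁻¹ • (X * lft α η * hᴴ * h) := by
        rw [Matrix.mul_assoc (X * lft α η), hhh', Matrix.mul_smul, Matrix.mul_one, smul_smul, inv_mul_cancel₀ hμ0,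
          one_smul]
    _ = _ := by rw [hu, lft_smul, Matrix.smul_mul]



/-- A torus element attached to a hyperbolic pair and a further vector. -/
def tor (z z' e : Fin b → F) (τ : F) : Matrix (Fin b) (Fin b) F :=
  1 + (τ - 1) • vecMulVec z (star z') + ((star τ)⁻¹ - 1) • vecMulVec z' (star z) +
    ((star τ / τ - 1) / sp e e) • vecMulVec e (star e)

omit H in
theorem tor_conjTranspose_mul {z z' e : Fin b → F} {τ : F} (hτ : τ ≠ 0) (hz : sp z z = 0) (hz' : sp z' z' = 0)
    (h1 : sp z z' = 1) (hze : sp z e = 0) (hz'e : sp z' e = 0) (he : sp e e ≠ 0) :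
    tor z z' e τ * (tor z z' e τ)ᴴ = 1 := by
  have h1' : sp z' z = 1 := by rw [← sp_star, h1, star_one]
  have hez : sp e z = 0 := sp_zero_comm.1 hze
  have hez' : sp e z' = 0 := sp_zero_comm.1 hz'e
  have hτ' : star τ ≠ 0 := star_ne_zero.2 hτ
  simp only [tor, conjTranspose_add, conjTranspose_one, conjTranspose_smul, vmv_conjTranspose, Matrix.mul_add,
    Matrix.add_mul, Matrix.mul_one, Matrix.one_mul, Matrix.smul_mul, Matrix.mul_smul, vmv_mul, hz, hz', h1, h1',
    hze, hz'e, hez, hez', zero_smul, smul_zero, add_zero, one_smul, smul_smul, star_sub, star_one, star_inv₀,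
    star_star, star_div₀, sp_star]
  match_scalars
  · ring
  all_goals field_simp
  all_goals ring

omit H in
theorem tor_det {z z' e : Fin b → F} {τ : F} (hτ : τ ≠ 0) (hz : sp z z = 0) (hz' : sp z' z' = 0)
    (h1 : sp z z' = 1) (hze : sp z e = 0) (hz'e : sp z' e = 0) (he : sp e e ≠ 0) :
    (tor z z' e τ).det = 1 := by
  have h1' : sp z' z = 1 := by rw [← sp_star, h1, star_one]
  have hez : sp e z = 0 := sp_zero_comm.1 hze
  have hez' : sp e z' = 0 := sp_zero_comm.1 hz'e
  set U : Matrix (Fin b) (Fin 3) F := Matrix.of fun i => ![(τ - 1) * z i, ((star τ)⁻¹ - 1) * z' i,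
    (star τ / τ - 1) / sp e e * e i] with hU
  set V : Matrix (Fin 3) (Fin b) F := Matrix.of ![star z', star z, star e] with hV
  have ht : tor z z' e τ = 1 + U * V := by
    rw [tor, add_assoc, add_assoc]
    congr 1
    ext i j
    simp only [Matrix.mul_apply, Fin.sum_univ_three, hU, hV, Matrix.of_apply, Matrix.add_apply, Matrix.smul_apply,
      vecMulVec_apply, Matrix.cons_val_zero, Matrix.cons_val_one, Matrix.cons_val, smul_eq_mul, Pi.star_apply]
    ring
  have hVU : (1 + V * U : Matrix (Fin 3) (Fin 3) F) = Matrix.diagonal ![τ, (star τ)⁻¹, star τ / τ] := by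
    have key : ∀ (a v : Fin b → F) (c : F), ∑ x, star a x * (c * v x) = c * sp a v := fun a v c => by
      rw [sp, dotProduct, Finset.mul_sum]
      exact Finset.sum_congr rfl fun x _ => by ring
    ext i j
    fin_cases i <;> fin_cases j <;>
      simp [hU, hV, Matrix.mul_apply, Matrix.vecMul, dotProduct, key, hz, hz', h1, h1', hze, hz'e, hez, hez', he, -Pi.star_apply]
  rw [ht, det_one_add_mul_comm, hVU, det_diagonal, Fin.prod_univ_three]
  have hτ' : star τ ≠ 0 := star_ne_zero.2 hτ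
  simp
  field_simp

/-- For a three-dimensional right factor the identity decomposes along a pair and a third vector. -/
theorem Setup.three_decomp (hb : b = 3) {z z' e : Fin b → F} (hz : sp z z = 0) (hz' : sp z' z' = 0)
    (h1 : sp z z' = 1) (hze : sp z e = 0) (hz'e : sp z' e = 0) (he : sp e e ≠ 0) :
    (1 : Matrix (Fin b) (Fin b) F) =
      vecMulVec z (star z') + vecMulVec z' (star z) + (sp e e)⁻¹ • vecMulVec e (star e) := by
  have h1' : sp z' z = 1 := by rw [← sp_star, h1, star_one]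
  have hez : sp e z = 0 := sp_zero_comm.1 hze
  have hez' : sp e z' = 0 := sp_zero_comm.1 hz'e
  refine Matrix.ext_of_mulVec_single fun j => ?_
  set v : Fin b → F := Pi.single j 1
  set w := v - (sp z' v • z + sp z v • z' + ((sp e e)⁻¹ * sp e v) • e) with hw
  suffices hw0 : w = 0 by
    rw [one_mulVec, add_mulVec, add_mulVec, smul_mulVec, vmv_mulVec, vmv_mulVec, vmv_mulVec, smul_smul]
    exact sub_eq_zero.1 hw0
  have k1 : sp z' w = 0 := by
    simp only [hw, sp_sub_right, sp_add_right, sp_smul_right, h1', hz', hz'e]; ring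
  have k2 : sp z w = 0 := by
    simp only [hw, sp_sub_right, sp_add_right, sp_smul_right, h1, hz, hze]; ring
  have k3 : sp e w = 0 := by
    simp only [hw, sp_sub_right, sp_add_right, sp_smul_right, hez, hez']
    field_simp
    ring
  by_contra hw0
  have hli : LinearIndependent F ![z, z', e, w] := by
    rw [Fintype.linearIndependent_iff]
    intro g hg
    simp only [Fin.sum_univ_four, Matrix.cons_val_zero, Matrix.cons_val_one, Matrix.cons_val] at hg
    have a1 := congrArg (sp z') hg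
    have a2 := congrArg (sp z) hg
    have a3 := congrArg (sp e) hg
    simp only [sp_add_right, sp_smul_right, sp_zero_right, h1, h1', hz, hz', hze, hz'e, hez, hez', k1, k2, k3,
      mul_zero, mul_one, add_zero, zero_add] at a1 a2 a3
    have g2 : g 2 = 0 := (mul_eq_zero.1 a3).resolve_right he
    rw [a1, a2, g2, zero_smul, zero_smul, zero_smul, zero_add, zero_add, zero_add, smul_eq_zero] at hg
    intro i
    fin_cases i
    · exact a1
    · exact a2
    · exact g2
    · exact hg.resolve_right hw0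
  have := hli.fintype_card_le_finrank
  simp [hb] at this

/-- For a three-dimensional right factor the partner layer goes to a layer. -/
theorem Setup.partner_image_three [Nonempty α] (hb : b = 3) {z z' z₂ : Fin b → F} (hz0 : z ≠ 0) (hz : sp z z = 0)
    (hz' : sp z' z' = 0) (h1 : sp z z' = 1) (hz₂0 : z₂ ≠ 0) (hz₂ : sp z₂ z₂ = 0) {X : Matrix Ix Ix F}
    (hX : InM M X) {h : Matrix α α F} (hh : X * lft α z = lft α z₂ * h) (hdet : IsUnit h.det) :
    ∃ u : Fin b → F, X * lft α z' = lft α u * h := by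
  obtain ⟨r, hr, hr0, hr1⟩ := H.big.resolve_left (by omega)
  obtain ⟨τ, hτ⟩ := H99.TensorU.exists_norm H.ns hr
  have hτ0 : τ ≠ 0 := fun h0 => hr0 (by rw [← hτ, h0, zero_mul])
  have h1' : sp z' z = 1 := by rw [← sp_star, h1, star_one]
  obtain ⟨μ, hμ0, hμ, hμ'⟩ := H.layer_sq hz hz₂0 hz₂ hX hh hdet
  -- an anisotropic vector orthogonal to the pair
  obtain ⟨e, hze, hz'e, he⟩ : ∃ e : Fin b → F, sp z e = 0 ∧ sp z' e = 0 ∧ sp e e ≠ 0 := by
    obtain ⟨U, hU, hUp⟩ := H99.TensorU.finrank_perp ![z, z']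
    obtain ⟨e, heU, he0⟩ := Submodule.exists_mem_ne_zero_of_ne_bot (p := U) fun h0 => by
      rw [h0, finrank_bot] at hU; simp at hU; omega
    have k1 : sp z e = 0 := hUp e heU 0
    have k2 : sp z' e = 0 := hUp e heU 1
    refine ⟨e, k1, k2, fun hee => ?_⟩
    obtain ⟨e', he', he1, he2⟩ := partner H.ns he0 hee
    have hli : LinearIndependent F ![z, z', e, e' - sp z' e' • z - sp z e' • z'] := by
      rw [Fintype.linearIndependent_iff]
      intro g hg
      simp only [Fin.sum_univ_four, Matrix.cons_val_zero, Matrix.cons_val_one, Matrix.cons_val] at hg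
      have a1 := congrArg (sp z') hg
      have a2 := congrArg (sp z) hg
      have a3 := congrArg (sp e) hg
      simp only [sp_add_right, sp_sub_right, sp_smul_right, sp_zero_right, h1, h1', hz, hz', k1, k2,
        sp_zero_comm.1 k1, sp_zero_comm.1 k2, hee, he1, mul_zero, mul_one, add_zero, zero_add, sub_zero, sub_self]
        at a1 a2 a3
      rw [a1, a2, a3, zero_smul, zero_smul, zero_smul, add_zero, zero_add, zero_add, smul_eq_zero] at hg
      intro i
      fin_cases i
      · exact a1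
      · exact a2
      · exact hg.resolve_right he0
      · exact a3
    have := hli.fintype_card_le_finrank
    simp [hb] at this
  have hez : sp e z = 0 := sp_zero_comm.1 hze
  obtain ⟨f, hf⟩ := H.layer_image hz0 hz hz₂0 hz₂ hX hh hdet hze
  have hiso : ∀ a c : Fin b → F, rgt α (star a) * lft α c = sp a c • (1 : Matrix α α F) := fun a c => by
    rw [rgt_mul_lft]; rfl
  have hrg : ∀ a : Fin b → F, (X * lft α a)ᴴ * (X * lft α z') = sp a z' • (1 : Matrix α α F) := fun a => by
    rw [conjTranspose_mul, lft_conjTranspose, Matrix.mul_assoc, ← Matrix.mul_assoc Xᴴ, H.unit' hX, Matrix.one_mul,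
      hiso]
  have hcc : ∀ (a : Fin b → F) (T : Matrix Ix α F), (lft α a * h)ᴴ * T = hᴴ * (rgt α (star a) * T) := fun a T => by
    rw [conjTranspose_mul, lft_conjTranspose, Matrix.mul_assoc]
  have hff : sp f f * μ = sp e e := by
    have e1 : (X * lft α e)ᴴ * (X * lft α e) = sp e e • (1 : Matrix α α F) := by
      rw [conjTranspose_mul, lft_conjTranspose, Matrix.mul_assoc, ← Matrix.mul_assoc Xᴴ, H.unit' hX, Matrix.one_mul,
        hiso]
    rw [hf, hcc f, ← Matrix.mul_assoc (rgt α (star f)), hiso, Matrix.smul_mul, Matrix.one_mul, Matrix.mul_smul, hμ',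
      smul_smul] at e1
    exact smul_left_injective F (one_ne_zero : (1 : Matrix α α F) ≠ 0) e1
  have hf0 : sp f f ≠ 0 := fun h0 => he (by rw [← hff, h0, zero_mul])
  have hz₂f : sp z₂ f = 0 := by
    have e1 : (X * lft α z)ᴴ * (X * lft α e) = sp z e • (1 : Matrix α α F) := by
      rw [conjTranspose_mul, lft_conjTranspose, Matrix.mul_assoc, ← Matrix.mul_assoc Xᴴ, H.unit' hX, Matrix.one_mul,
        hiso]
    rw [hh, hf, hze, zero_smul, hcc z₂, ← Matrix.mul_assoc (rgt α (star z₂)), hiso, Matrix.smul_mul, Matrix.one_mul,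
      Matrix.mul_smul, hμ', smul_smul] at e1
    exact (mul_eq_zero.1 ((smul_eq_zero.1 e1).resolve_right one_ne_zero)).resolve_right hμ0
  -- a partner of the image orthogonal to the image of the anisotropic vector
  obtain ⟨p, hp, hzp, hfp⟩ : ∃ p : Fin b → F, sp p p = 0 ∧ sp z₂ p = 1 ∧ sp p f = 0 := by
    obtain ⟨p₀, -, hp1, -⟩ := partner H.ns hz₂0 hz₂
    set p₁ := p₀ - (sp f p₀ / sp f f) • f with hp₁
    have q1 : sp z₂ p₁ = 1 := by rw [hp₁, sp_sub_right, sp_smul_right, hp1, hz₂f]; ring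
    have q2 : sp f p₁ = 0 := by rw [hp₁, sp_sub_right, sp_smul_right, div_mul_cancel₀ _ hf0, sub_self]
    obtain ⟨t, ht⟩ := exists_trace H.ns (a := -(sp p₁ p₁)) (by rw [star_neg, sp_star])
    refine ⟨p₁ + t • z₂, ?_, by rw [sp_add_right, sp_smul_right, q1, hz₂]; ring, ?_⟩
    · rw [sp_add_left, sp_add_right, sp_add_right, sp_smul_left, sp_smul_left, sp_smul_right, sp_smul_right, hz₂, q1,
        ← sp_star z₂ p₁, q1, star_one]
      linear_combination ht
    · rw [sp_zero_comm, sp_add_right, sp_smul_right, q2, sp_zero_comm.1 hz₂f, mul_zero, add_zero]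
  set J := X * lft α z' with hJ
  have q1 : hᴴ * (rgt α (star z₂) * J) = 1 := by
    rw [← hcc z₂, ← hh, hrg, h1, one_smul]
  have q2 : hᴴ * (rgt α (star f) * J) = 0 := by
    rw [← hcc f, ← hf, hrg, sp_zero_comm.1 hz'e, zero_smul]
  have hinj : ∀ T : Matrix α α F, hᴴ * T = 0 → T = 0 := fun T hT => by
    have := congrArg (h * ·) hT
    rw [← Matrix.mul_assoc, hμ, Matrix.smul_mul, Matrix.one_mul, Matrix.mul_zero] at this
    exact (smul_eq_zero.1 this).resolve_left hμ0
  have q1' : rgt α (star z₂) * J = μ⁻¹ • h := by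
    refine sub_eq_zero.1 (hinj _ ?_)
    rw [Matrix.mul_sub, q1, Matrix.mul_smul, hμ', smul_smul, inv_mul_cancel₀ hμ0, one_smul, sub_self]
  set K := rgt α (star p) * J with hK
  have hJd : J = lft α z₂ * K + lft α p * (μ⁻¹ • h) := by
    conv_lhs => rw [← Matrix.one_mul J, ← one_kronecker_one (α := F) (m := α) (n := Fin b),
      H.three_decomp hb hz₂ hp hzp hz₂f hfp hf0, kronecker_add, kronecker_add, kronecker_smul, ← lft_mul_rgt,
      ← lft_mul_rgt, ← lft_mul_rgt]
    rw [Matrix.add_mul, Matrix.add_mul, Matrix.smul_mul, Matrix.mul_assoc, Matrix.mul_assoc, Matrix.mul_assoc, q1',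
      hinj _ q2, Matrix.mul_zero, smul_zero, add_zero, ← hK]
  have hKs : h * Kᴴ + K * hᴴ = 0 := by
    have e1 : Jᴴ * J = (0 : Matrix α α F) := by rw [hJ, hrg, hz', zero_smul]
    nth_rw 1 [hJd] at e1
    rw [conjTranspose_add, conjTranspose_mul (lft α z₂) K, conjTranspose_mul (lft α p), lft_conjTranspose,
      lft_conjTranspose, Matrix.add_mul, Matrix.mul_assoc, Matrix.mul_assoc, q1', ← hK] at e1
    have e2 := congrArg (fun T => h * T * hᴴ) e1
    simp only [Matrix.mul_add, Matrix.add_mul, Matrix.mul_zero, Matrix.zero_mul, conjTranspose_smul, Matrix.mul_smul,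
      Matrix.smul_mul, ← Matrix.mul_assoc, hμ] at e2
    simp only [Matrix.mul_assoc, hμ, Matrix.one_mul, Matrix.mul_smul, Matrix.smul_mul, Matrix.mul_one, smul_smul,
      inv_mul_cancel₀ hμ0, one_smul] at e2
    have hμs : star μ⁻¹ * μ = 1 := by
      rw [star_inv₀]
      have : star μ = μ := by
        have := congrArg Matrix.conjTranspose hμ
        rw [conjTranspose_mul, conjTranspose_conjTranspose, hμ, conjTranspose_smul, conjTranspose_one] at this
        exact (smul_left_injective F (one_ne_zero : (1 : Matrix α α F) ≠ 0) this).symm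
      rw [this, inv_mul_cancel₀ hμ0]
    rw [hμs, one_smul] at e2
    exact e2
  -- the torus
  set T := tor z z' e τ
  set S := tor z₂ p f τ with hS
  have hSu : S * Sᴴ = 1 := tor_conjTranspose_mul hτ0 hz₂ hp hzp hz₂f hfp hf0
  have hTM := H.right T (tor_conjTranspose_mul hτ0 hz hz' h1 hze hz'e he) (tor_det hτ0 hz hz' h1 hze hz'e he)
  have hSM := H.right S hSu (tor_det hτ0 hz₂ hp hzp hz₂f hfp hf0)
  have hm : InM M (X * ((1 : Matrix α α F) ⊗ₖ T) * Xᴴ * ((1 : Matrix α α F) ⊗ₖ Sᴴ)) := by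
    refine ((hX.mul hTM).mul (H.inv hX)).mul (hSM.inv ?_)
    rw [← mul_kronecker_mul, hSu, Matrix.one_mul, one_kronecker_one]
  have hY : X * ((1 : Matrix α α F) ⊗ₖ T) * Xᴴ =
      (1 : Matrix α α F) ⊗ₖ S + (((star τ)⁻¹ - τ) • (K * hᴴ)) ⊗ₖ vecMulVec z₂ (star z₂) := by
    have eJ : Jᴴ = Kᴴ * rgt α (star z₂) + (star μ⁻¹ • hᴴ) * rgt α (star p) := by
      rw [hJd, conjTranspose_add, conjTranspose_mul (lft α z₂) K, conjTranspose_mul (lft α p), lft_conjTranspose,
        lft_conjTranspose, conjTranspose_smul]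
    have hμs : star μ = μ := by
      have := congrArg Matrix.conjTranspose hμ
      rw [conjTranspose_mul, conjTranspose_conjTranspose, hμ, conjTranspose_smul, conjTranspose_one] at this
      exact (smul_left_injective F (one_ne_zero : (1 : Matrix α α F) ≠ 0) this).symm
    have a1 : X * lft α z * (rgt α (star z') * Xᴴ) = lft α z₂ * (h * Kᴴ) * rgt α (star z₂) +
        lft α z₂ * rgt α (star p) := by
      rw [hh, show rgt α (star z') * Xᴴ = Jᴴ by rw [hJ, conjTranspose_mul, lft_conjTranspose], eJ, Matrix.mul_add,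
        Matrix.smul_mul, Matrix.mul_smul]
      congr 1
      · simp only [Matrix.mul_assoc]
      · rw [Matrix.mul_assoc, ← Matrix.mul_assoc h, hμ, Matrix.smul_mul, Matrix.one_mul, Matrix.mul_smul, smul_smul,
          star_inv₀, hμs, inv_mul_cancel₀ hμ0, one_smul]
    have a2 : J * (rgt α (star z) * Xᴴ) = lft α z₂ * (K * hᴴ) * rgt α (star z₂) +
        lft α p * rgt α (star z₂) := by
      rw [show rgt α (star z) * Xᴴ = hᴴ * rgt α (star z₂) by
        rw [← lft_conjTranspose, ← conjTranspose_mul, hh, conjTranspose_mul, lft_conjTranspose], hJd, Matrix.add_mul]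
      congr 1
      · simp only [Matrix.mul_assoc]
      · rw [Matrix.mul_assoc, Matrix.smul_mul, ← Matrix.mul_assoc h, hμ, Matrix.smul_mul, Matrix.one_mul, smul_smul,
          inv_mul_cancel₀ hμ0, one_smul]
    have a3 : X * lft α e * (rgt α (star e) * Xᴴ) = μ • (lft α f * rgt α (star f)) := by
      rw [show rgt α (star e) * Xᴴ = hᴴ * rgt α (star f) by
        rw [← lft_conjTranspose, ← conjTranspose_mul, hf, conjTranspose_mul, lft_conjTranspose], hf, Matrix.mul_assoc,
        ← Matrix.mul_assoc h, hμ, Matrix.smul_mul, Matrix.one_mul, Matrix.mul_smul]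
    have eT : (1 : Matrix α α F) ⊗ₖ T = 1 + (τ - 1) • (lft α z * rgt α (star z')) +
        ((star τ)⁻¹ - 1) • (lft α z' * rgt α (star z)) +
        ((star τ / τ - 1) / sp e e) • (lft α e * rgt α (star e)) := by
      simp only [T, tor, kronecker_add, one_kronecker_one, kronecker_smul, lft_mul_rgt]
    have hmm : ∀ (A : Matrix Ix α F) (C : Matrix α Ix F), X * (A * C) * Xᴴ = X * A * (C * Xᴴ) := fun A C => by
      simp only [Matrix.mul_assoc]
    rw [eT]
    simp only [Matrix.mul_add, Matrix.add_mul, Matrix.mul_one, Matrix.mul_smul, Matrix.smul_mul, H.unit hX,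
      hmm]
    rw [a1, a3, ← hJ, a2]
    simp only [hS, tor, kronecker_add, one_kronecker_one, kronecker_smul, lft_mul_rgt, lft_mid_rgt, smul_kronecker]
    rw [show h * Kᴴ = -(K * hᴴ) from eq_neg_of_add_eq_zero_left hKs,
      ← neg_one_smul F (K * hᴴ), smul_kronecker]
    rw [← hff]
    match_scalars <;> field_simp <;> ring
  rw [hY, Matrix.add_mul, ← mul_kronecker_mul, hSu, Matrix.one_mul, one_kronecker_one, ← mul_kronecker_mul,
    Matrix.mul_one] at hm
  have hzS : vecMulVec z₂ (star z₂) * Sᴴ = star τ • vecMulVec z₂ (star z₂) := by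
    have hSz : S *ᵥ z₂ = τ • z₂ := by
      have hfz : sp f z₂ = 0 := sp_zero_comm.1 hz₂f
      have hpz : sp p z₂ = 1 := by rw [← sp_star, hzp, star_one]
      simp only [hS, tor, add_mulVec, one_mulVec, smul_mulVec, vmv_mulVec, hz₂, hpz, hfz, zero_smul, smul_zero,
        add_zero, one_smul]
      module
    have e1 : vecMulVec z₂ (star z₂) * Sᴴ = vecMulVec z₂ (star (S *ᵥ z₂)) := by
      rw [star_mulVec, vecMulVec_mul]
    rw [e1, hSz, H99.TensorU.vmv_smul_right]
  rw [hzS, kronecker_smul, ← smul_kronecker, smul_smul] at hm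
  obtain ⟨c, hc⟩ := H.good z₂ _ hz₂0 hz₂ hm
  have hκ : star τ * ((star τ)⁻¹ - τ) = 1 - r := by
    have := star_ne_zero.2 hτ0
    field_simp
    linear_combination -hτ
  have hκ0 : (1 : F) - r ≠ 0 := sub_ne_zero.2 (Ne.symm hr1)
  rw [hκ] at hc
  have hKh : K * hᴴ = (c / (1 - r)) • (1 : Matrix α α F) := by
    rw [div_eq_inv_mul, mul_smul, ← hc, smul_smul, inv_mul_cancel₀ hκ0, one_smul]
  have hKk : K = (μ⁻¹ * (c / (1 - r))) • h := by
    have := congrArg (· * h) hKh
    simp only [Matrix.mul_assoc, hμ', Matrix.mul_smul, Matrix.mul_one, Matrix.smul_mul, Matrix.one_mul] at this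
    rw [mul_smul, ← this, smul_smul, inv_mul_cancel₀ hμ0, one_smul]
  refine ⟨(μ⁻¹ * (c / (1 - r))) • z₂ + μ⁻¹ • p, ?_⟩
  rw [hJd, hKk, lft_add, lft_smul, lft_smul, Matrix.add_mul, Matrix.smul_mul, Matrix.smul_mul, Matrix.mul_smul,
    Matrix.mul_smul]

/-- An element mapping a layer to a layer is a pure tensor. -/
theorem Setup.pure_of_layer {z z₂ : Fin b → F} (hz0 : z ≠ 0) (hz : sp z z = 0) (hz₂0 : z₂ ≠ 0)
    (hz₂ : sp z₂ z₂ = 0) {X : Matrix Ix Ix F} (hX : InM M X) {h : Matrix α α F} (hh : X * lft α z = lft α z₂ * h)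
    (hdet : IsUnit h.det) : IsPure X := by
  rcases isEmpty_or_nonempty α with hα | ⟨⟨i⟩⟩
  · exact ⟨1, 1, by ext p; exact isEmptyElim p.1⟩
  have : Nonempty α := ⟨i⟩
  obtain ⟨z', hz', h1, h2⟩ := partner H.ns hz0 hz
  obtain ⟨u', hu'⟩ : ∃ u : Fin b → F, X * lft α z' = lft α u * h := by
    by_cases hb : b = 3
    · exact H.partner_image_three hb hz0 hz hz' h1 hz₂0 hz₂ hX hh hdet
    obtain ⟨η₀, hη₀0, hη₀, hp⟩ := exists_iso_perp H.ns ![z, z'] (by rw [Fintype.card_fin]; have := H.three; omega)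
    have hzη : sp z η₀ = 0 := hp 0
    obtain ⟨f₀, hf₀⟩ := H.layer_image hz0 hz hz₂0 hz₂ hX hh hdet hzη
    have hf₀0 : f₀ ≠ 0 := by
      intro h0
      rw [h0, lft_zero, Matrix.zero_mul] at hf₀
      have := congrArg (Xᴴ * ·) hf₀
      rw [← Matrix.mul_assoc, H.unit' hX, Matrix.one_mul, Matrix.mul_zero] at this
      obtain ⟨k, hk⟩ := Function.ne_iff.1 hη₀0
      exact hk (by simpa [lft_apply] using congrFun (congrFun this (i, k)) i)
    have hf₀f : sp f₀ f₀ = 0 := by
      have e := congrArg (fun T : Matrix Ix α F => Tᴴ * T) hf₀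
      simp only [conjTranspose_mul, lft_conjTranspose, Matrix.mul_assoc] at e
      rw [← Matrix.mul_assoc Xᴴ, H.unit' hX, Matrix.one_mul, rgt_mul_lft, ← Matrix.mul_assoc (rgt α (star f₀)),
        rgt_mul_lft, Matrix.smul_mul, Matrix.one_mul, Matrix.mul_smul] at e
      have e0 : star η₀ ⬝ᵥ η₀ = 0 := hη₀
      rw [e0, zero_smul] at e
      by_contra hne
      have e2 : hᴴ * h = 0 := (smul_eq_zero.1 e.symm).resolve_left hne
      have := congrArg Matrix.det e2
      rw [det_mul, det_conjTranspose, det_zero] at this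
      exact ((hdet.star).mul hdet).ne_zero this
    exact H.layer_image hη₀0 hη₀ hf₀0 hf₀f hX hf₀ hdet (η := z') (sp_zero_comm.1 (hp 1))
  have hall : ∀ v : Fin b → F, ∃ u : Fin b → F, X * lft α v = lft α u * h := by
    intro v
    obtain ⟨u₁, hu₁⟩ := H.layer_image hz0 hz hz₂0 hz₂ hX hh hdet (η := v - sp z v • z')
      (by rw [sp_sub_right, sp_smul_right, h1]; ring)
    refine ⟨u₁ + sp z v • u', ?_⟩
    rw [lft_add, lft_smul, Matrix.add_mul, Matrix.smul_mul, ← hu₁, ← hu', ← Matrix.mul_smul, ← Matrix.mul_add,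
      ← lft_smul, ← lft_add, sub_add_cancel]
  choose f hf using hall
  refine ⟨h, Matrix.of fun k l => f (Pi.single l 1) k, ?_⟩
  ext ⟨j, k⟩ ⟨i', l⟩
  have e := congrFun (congrFun (hf (Pi.single l 1)) (j, k)) i'
  rw [mul_lft_single] at e
  rw [e]
  simp only [Matrix.mul_apply, lft_apply, kroneckerMap_apply, Matrix.of_apply]
  rw [Finset.sum_eq_single j (fun c _ hc => by simp [Ne.symm hc]) (by simp)]
  simp [mul_comm]


/-- Contractions of elements that are not pure do not vanish. -/
theorem Setup.ct_ne {X : Matrix Ix Ix F} (hX : InM M X) (hnp : ¬ IsPure X) {x₁ z : Fin b → F} (hx0 : x₁ ≠ 0)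
    (hx : sp x₁ x₁ = 0) (hz0 : z ≠ 0) (hz : sp z z = 0) : ct α X x₁ z ≠ 0 := by
  intro hzero
  rcases isEmpty_or_nonempty α with hα | ⟨⟨i⟩⟩
  · exact hnp ⟨1, 1, by ext p; exact isEmptyElim p.1⟩
  have : Nonempty α := ⟨i⟩
  obtain ⟨d, hd0, hd⟩ := exists_skew H.ns
  set K := rgt α (star x₁) * X with hK
  have hKz : K * lft α z = 0 := hzero
  have hXKt : Xᴴ * lft α x₁ = Kᴴ := by rw [hK, conjTranspose_mul, rgt_conjTranspose]
  have hKK : K * Kᴴ = 0 := by
    rw [← hXKt, hK, Matrix.mul_assoc, ← Matrix.mul_assoc X, H.unit hX, Matrix.one_mul, rgt_mul_lft]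
    exact (congrArg (· • _) hx).trans (zero_smul _ _)
  have hKinj : ∀ T : Matrix α α F, Kᴴ * T = 0 → T = 0 := fun T hT => by
    have e := congrArg (X * ·) hT
    rw [← hXKt, ← Matrix.mul_assoc, ← Matrix.mul_assoc, H.unit hX, Matrix.one_mul, Matrix.mul_zero] at e
    exact lft_injective hx0 (e.trans (Matrix.mul_zero _).symm)
  set S := (1 : Matrix Ix Ix F) + d • (Kᴴ * K) with hS
  have hSM : InM M S := by
    have h1 := H.trans (α := α) hx hd
    rw [smul_kronecker, ← lft_mul_rgt] at h1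
    have h2 := H.conj h1 (H.inv hX)
    convert h2 using 1
    rw [hS, ← hXKt, hK, conjTranspose_conjTranspose, Matrix.mul_smul, Matrix.smul_mul]
    simp only [Matrix.mul_assoc]
  have hSz : S * lft α z = lft α z * (1 : Matrix α α F) := by
    rw [hS, Matrix.add_mul, Matrix.one_mul, Matrix.mul_one, Matrix.smul_mul, Matrix.mul_assoc, hKz,
      Matrix.mul_zero, smul_zero, add_zero]
  have hkey : ∀ η η' : Fin b → F, sp z η = 0 → ∃ c : F, (K * lft α η')ᴴ * (K * lft α η) = c • (1 : Matrix α α F) := by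
    intro η η' hη
    obtain ⟨u, hu⟩ := H.layer_image hz0 hz hz0 hz hSM hSz (by simp) hη
    refine ⟨(sp η' u - sp η' η) / d, ?_⟩
    have e := congrArg (rgt α (star η') * ·) hu
    simp only [Matrix.mul_one, hS, Matrix.add_mul, Matrix.one_mul, Matrix.mul_add, Matrix.smul_mul,
      Matrix.mul_smul, rgt_mul_lft] at e
    rw [conjTranspose_mul, lft_conjTranspose]
    simp only [Matrix.mul_assoc] at e ⊢
    rw [div_eq_inv_mul, mul_smul, sub_smul]
    change _ = d⁻¹ • ((star η' ⬝ᵥ u) • (1 : Matrix α α F) - (star η' ⬝ᵥ η) • 1)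
    rw [← e, add_sub_cancel_left, smul_smul, inv_mul_cancel₀ hd0, one_smul]
  obtain ⟨L₀, hL⟩ : ∃ L₀ : Matrix α α F, ∀ v : Fin b → F, ∃ c : F, K * lft α v = c • L₀ := by
    obtain ⟨z', hz', h1, h2⟩ := partner H.ns hz0 hz
    by_cases hall : ∀ η, sp z η = 0 → K * lft α η = 0
    · refine ⟨K * lft α z', fun v => ⟨sp z v, ?_⟩⟩
      have := hall (v - sp z v • z') (by rw [sp_sub_right, sp_smul_right, h1]; ring)
      rw [sub_eq_add_neg, ← neg_smul, lft_add, lft_smul, Matrix.mul_add, Matrix.mul_smul, neg_smul,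
        add_neg_eq_zero] at this
      exact this
    push Not at hall
    obtain ⟨η, hη, hη0⟩ := hall
    have hinv : IsUnit (K * lft α η).det := by
      obtain ⟨k, hk⟩ : ∃ k : Fin b, rgt α (star (Pi.single k (1 : F))) * (Kᴴ * (K * lft α η)) ≠ 0 := by
        by_contra hc
        push Not at hc
        refine hη0 (hKinj _ ?_)
        ext ⟨j, k⟩ l
        have := congrFun (congrFun (hc k) j) l
        rwa [show star (Pi.single k (1 : F) : Fin b → F) = Pi.single k 1 by
          funext x; by_cases hx : x = k <;> simp [hx, Pi.single_eq_of_ne], rgt_single_mul] at this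
      obtain ⟨c, hc⟩ := hkey η (Pi.single k 1) hη
      rw [conjTranspose_mul, lft_conjTranspose, Matrix.mul_assoc] at hc
      have hc0 : c ≠ 0 := fun h0 => hk (by rw [hc, h0, zero_smul])
      rw [← Matrix.mul_assoc] at hc
      have := congrArg Matrix.det hc
      rw [det_mul, det_smul, det_one, mul_one] at this
      exact IsUnit.mk0 _ (right_ne_zero_of_mul (this ▸ pow_ne_zero _ hc0))
    refine ⟨((K * lft α η)ᴴ)⁻¹, fun v => ?_⟩
    obtain ⟨c, hc⟩ := hkey η v hη
    refine ⟨star c, ?_⟩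
    have e := congrArg Matrix.conjTranspose hc
    rw [conjTranspose_mul, conjTranspose_conjTranspose, conjTranspose_smul, conjTranspose_one] at e
    have hu : IsUnit ((K * lft α η)ᴴ).det := by rw [det_conjTranspose]; exact hinv.star
    have := congrArg (((K * lft α η)ᴴ)⁻¹ * ·) e
    rwa [← Matrix.mul_assoc, Matrix.nonsing_inv_mul _ hu, Matrix.one_mul, Matrix.mul_smul, Matrix.mul_one] at this
  have hL0 : IsUnit L₀.det := by
    rw [isUnit_iff_ne_zero]
    intro hdet
    obtain ⟨a, ha, haL⟩ := (Matrix.exists_vecMul_eq_zero_iff (M := L₀)).2 hdet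
    have haK : a ᵥ* K = 0 := by
      funext ⟨j, k⟩
      obtain ⟨c, hc⟩ := hL (Pi.single k 1)
      have : a ᵥ* (K * lft α (Pi.single k (1 : F))) = 0 := by rw [hc, vecMul_smul, haL, smul_zero]
      have := congrFun this j
      simpa [vecMul, dotProduct, mul_lft_single] using this
    obtain ⟨x', hx', e1, e2⟩ := partner H.ns hx0 hx
    have := congrArg (· ᵥ* (Xᴴ * lft α x')) haK
    simp only [vecMul_vecMul, zero_vecMul] at this
    rw [hK, Matrix.mul_assoc, ← Matrix.mul_assoc X, H.unit hX, Matrix.one_mul, rgt_mul_lft,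
      show star x₁ ⬝ᵥ x' = 1 from e1, one_smul, vecMul_one] at this
    exact ha this
  obtain ⟨ψ, hψ⟩ := eq_rgt (L₀⁻¹ * K) fun v => by
    obtain ⟨c, hc⟩ := hL v
    exact ⟨c, by rw [Matrix.mul_assoc, hc, Matrix.mul_smul, Matrix.nonsing_inv_mul _ hL0]⟩
  have hKψ : K = L₀ * rgt α ψ := by rw [← hψ, ← Matrix.mul_assoc, Matrix.mul_nonsing_inv _ hL0, Matrix.one_mul]
  have hlay : Xᴴ * lft α x₁ = lft α (star ψ) * L₀ᴴ := by
    rw [hXKt, hKψ, conjTranspose_mul, ← rgt_conjTranspose, star_star]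
  have hdetL : IsUnit L₀ᴴ.det := by rw [det_conjTranspose]; exact hL0.star
  have hψ0 : star ψ ≠ 0 := fun h0 => by
    rw [h0, lft_zero, Matrix.zero_mul] at hlay
    have := congrArg (X * ·) hlay
    rw [← Matrix.mul_assoc, H.unit hX, Matrix.one_mul, Matrix.mul_zero] at this
    obtain ⟨k, hk⟩ := Function.ne_iff.1 hx0
    exact hk (by simpa [lft_apply] using congrFun (congrFun this (i, k)) i)
  have hψψ : sp (star ψ) (star ψ) = 0 := by
    by_contra hne
    have e := hKK
    rw [hKψ, conjTranspose_mul, Matrix.mul_assoc, ← Matrix.mul_assoc (rgt α ψ),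
      show (rgt α ψ)ᴴ = lft α (star ψ) by rw [← rgt_conjTranspose, star_star],
      rgt_mul_lft, Matrix.smul_mul, Matrix.one_mul, Matrix.mul_smul] at e
    have e2 := (smul_eq_zero.1 e).resolve_left (by simpa [sp] using hne)
    have := congrArg Matrix.det e2
    rw [det_mul, det_zero] at this
    exact (hL0.mul hdetL).ne_zero this
  obtain ⟨g, k, hgk⟩ := H.pure_of_layer hx0 hx hψ0 hψψ (H.inv hX) hlay hdetL
  exact hnp ⟨gᴴ, kᴴ, by rw [← kron_conjTranspose, ← hgk, conjTranspose_conjTranspose]⟩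

end Cfsg.Agent.H58.Wreath.SU
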