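import Cfsg.Agent.H58.Wreath.SU.Root
import Cfsg.Agent.H58.Wreath.Sp.Plane

/-!
A transvection of the right factor and a root: the group generated by their lines and its action on two blocks
of columns.
-/

set_option autoImplicit false
set_option linter.unusedSectionVars false

namespace Cfsg.Agent.H58.Wreath.SU

open Matrix
open Cfsg.Agent.H99.Tensor
open Cfsg.Agent.H99.TensorU (sp ct lft_conjTranspose rgt_conjTranspose)
open Cfsg.Agent.H58.Wreath.Sp (Sx th up lo uni Rel relSub rel_up rel_lo fixSub up_lo_entries)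
open scoped Kronecker MatrixGroups

variable {F : Type*} [Field F] [StarRing F] {α : Type} [Fintype α] [DecidableEq α] {b : ℕ}

local notation "Ix" => α × Fin b

/-- A transvection of the right factor and a root. -/
structure Frame (M : Subgroup (GL (α × Fin b) F)) where
  w : Fin b → F
  d : F
  d₁ : F
  P₁ : Matrix (α × Fin b) α F
  L : Matrix α (α × Fin b) F
  hw0 : w ≠ 0
  hw : sp w w = 0
  hd0 : d ≠ 0
  hd : star d = -d
  hd₁0 : d₁ ≠ 0
  hd₁ : star d₁ = -d₁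
  hL : L * P₁ = 1
  hP₁ : P₁ᴴ * P₁ = 0
  hmem : ∀ r : F, star r = r → InM M (1 + r • (d₁ • (P₁ * P₁ᴴ)))

namespace Frame

variable {M : Subgroup (GL (α × Fin b) F)} (S : Frame M)

def P : Matrix Ix α F := lft α S.w

def A : Matrix Ix Ix F := rootA α S.w S.d

def B : Matrix Ix Ix F := S.d₁ • (S.P₁ * S.P₁ᴴ)

/-- The contraction of the second frame on the first. -/
def C : Matrix α α F := rgt α (star S.w) * S.P₁

/-- The invariant. -/
def θ : Matrix α α F := S.d • ct α S.B S.w S.w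

theorem isRoot : Root M S.B := ⟨S.d₁, S.P₁, S.L, S.hd₁0, S.hd₁, S.hL, S.hP₁, rfl, S.hmem⟩

theorem C_conjTranspose : S.Cᴴ = S.P₁ᴴ * S.P := by
  rw [C, conjTranspose_mul, rgt_conjTranspose]; rfl

theorem θ_eq : S.θ = (S.d * S.d₁) • (S.C * S.Cᴴ) := by
  rw [C_conjTranspose, θ, C, ct, B, P, Matrix.mul_smul, Matrix.smul_mul, smul_smul]
  simp only [Matrix.mul_assoc]

theorem θ_conjTranspose : S.θᴴ = S.θ := by
  rw [θ_eq, conjTranspose_smul, conjTranspose_mul, conjTranspose_conjTranspose, star_mul', S.hd, S.hd₁, neg_mul_neg]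

theorem A_eq : S.A = S.d • (S.P * S.Pᴴ) := by
  rw [A, rootA, P, lft_conjTranspose]

theorem PP : S.Pᴴ * S.P = 0 := by
  rw [P, lft_conjTranspose, rgt_star_lft, S.hw, zero_smul]

theorem A_P : S.A * S.P = 0 := by
  rw [A_eq, Matrix.smul_mul, Matrix.mul_assoc, S.PP, Matrix.mul_zero, smul_zero]

theorem A_sq : S.A * S.A = 0 := by
  nth_rw 2 [A_eq]
  rw [Matrix.mul_smul, ← Matrix.mul_assoc, S.A_P, Matrix.zero_mul, smul_zero]

theorem B_sq : S.B * S.B = 0 := by
  simp only [B, Matrix.smul_mul, Matrix.mul_smul, Matrix.mul_assoc]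
  rw [← Matrix.mul_assoc S.P₁ᴴ S.P₁, S.hP₁, Matrix.zero_mul, Matrix.mul_zero, smul_zero, smul_zero]

theorem BP_eq : S.B * S.P = S.d₁ • (S.P₁ * S.Cᴴ) := by
  rw [B, C_conjTranspose, Matrix.smul_mul, Matrix.mul_assoc]

theorem B_Q : S.B * (S.B * S.P) = 0 := by rw [← Matrix.mul_assoc, S.B_sq, Matrix.zero_mul]

theorem A_Q : S.A * (S.B * S.P) = S.P * S.θ := by
  rw [θ, A_eq, ct, P, lft_conjTranspose, Matrix.mul_smul, Matrix.smul_mul]
  simp only [Matrix.mul_assoc]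

theorem θ_ct : ct α S.B S.w S.w = S.d⁻¹ • S.θ := by
  rw [θ, smul_smul, inv_mul_cancel₀ S.hd0, one_smul]

/-- The entries are hermitian. -/
def hermSub (x : Matrix α α F) : Subgroup (SL(2, Sx x)) where
  carrier := {s | ∀ i j, ((s i j : Sx x) : Matrix α α F)ᴴ = ((s i j : Sx x) : Matrix α α F)}
  one_mem' i j := by
    rw [Matrix.SpecialLinearGroup.coe_one, Matrix.one_apply]
    split_ifs <;> simp
  mul_mem' {s t} hs ht i j := by
    have hs' : ∀ i j, ((s i j : Sx x) : Matrix α α F)ᴴ = ((s i j : Sx x) : Matrix α α F) := hs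
    have ht' : ∀ i j, ((t i j : Sx x) : Matrix α α F)ᴴ = ((t i j : Sx x) : Matrix α α F) := ht
    have hc : ∀ u v : Sx x, (u : Matrix α α F) * (v : Matrix α α F) = (v : Matrix α α F) * u := fun u v =>
      congrArg Subtype.val (mul_comm u v)
    simp only [Matrix.SpecialLinearGroup.coe_mul, Matrix.mul_apply, Fin.sum_univ_two, Subalgebra.coe_add,
      Subalgebra.coe_mul, conjTranspose_add, conjTranspose_mul, hs', ht']
    rw [hc (t 0 j) (s i 0), hc (t 1 j) (s i 1)]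
  inv_mem' {s} hs i j := by
    rw [Matrix.SpecialLinearGroup.SL2_inv_expl]
    fin_cases i <;> fin_cases j <;> simp [hs 0 0, hs 0 1, hs 1 0, hs 1 1]

variable (M)

/-- The line of the transvection. -/
def uA (r : F) : GL Ix F := uni S.A S.A_sq r

/-- The line of the root. -/
def uB (r : F) : GL Ix F := uni S.B S.B_sq r

variable {M}

/-- The group generated by the two lines, with its action. -/
noncomputable def Khat : Subgroup (GL Ix F × SL(2, Sx S.θ)) :=
  Subgroup.closure ({p | ∃ r : F, star r = r ∧ p = (uni S.A S.A_sq r, up (r • th S.θ))} ∪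
    {p | ∃ r : F, star r = r ∧ p = (uni S.B S.B_sq r, lo (r • (1 : Sx S.θ)))})

/-- The group generated by the two lines. -/
noncomputable def K : Subgroup (GL Ix F) := S.Khat.map (MonoidHom.fst _ _)

theorem gA_mem {r : F} (hr : star r = r) : (uni S.A S.A_sq r, up (r • th S.θ)) ∈ S.Khat :=
  Subgroup.subset_closure (Or.inl ⟨r, hr, rfl⟩)

theorem gB_mem {r : F} (hr : star r = r) : (uni S.B S.B_sq r, lo (r • (1 : Sx S.θ))) ∈ S.Khat :=
  Subgroup.subset_closure (Or.inr ⟨r, hr, rfl⟩)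

theorem uA_mem {r : F} (hr : star r = r) : uni S.A S.A_sq r ∈ S.K := ⟨_, S.gA_mem hr, rfl⟩

theorem uB_mem {r : F} (hr : star r = r) : uni S.B S.B_sq r ∈ S.K := ⟨_, S.gB_mem hr, rfl⟩

theorem K_le {Q : Subgroup (GL Ix F)} (hA : ∀ r : F, star r = r → uni S.A S.A_sq r ∈ Q)
    (hB : ∀ r : F, star r = r → uni S.B S.B_sq r ∈ Q) : S.K ≤ Q := by
  rw [K, Subgroup.map_le_iff_le_comap, Khat, Subgroup.closure_le]
  rintro q (⟨r, hr, rfl⟩ | ⟨r, hr, rfl⟩)
  · exact hA r hr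
  · exact hB r hr

theorem Khat_rel {p : GL Ix F × SL(2, Sx S.θ)} (hp : p ∈ S.Khat) :
    Rel S.P (S.B * S.P) (p.1 : Matrix Ix Ix F) p.2 := by
  have hle : S.Khat ≤ relSub S.P (S.B * S.P) S.θ := by
    refine (Subgroup.closure_le _).2 ?_
    rintro q (⟨r, -, rfl⟩ | ⟨r, -, rfl⟩)
    · exact rel_up S.A_sq S.A_P S.A_Q r
    · exact rel_lo S.B_sq rfl S.B_Q r
  exact hle hp

theorem Khat_herm {p : GL Ix F × SL(2, Sx S.θ)} (hp : p ∈ S.Khat) (i j : Fin 2) :
    ((p.2 i j : Sx S.θ) : Matrix α α F)ᴴ = ((p.2 i j : Sx S.θ) : Matrix α α F) := by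
  have hle : S.Khat ≤ (hermSub S.θ).comap (MonoidHom.snd _ _) := by
    refine (Subgroup.closure_le _).2 ?_
    rintro q (⟨r, hr, rfl⟩ | ⟨r, hr, rfl⟩) <;> intro i j <;> fin_cases i <;> fin_cases j <;>
      simp [up, lo, th, hr, S.θ_conjTranspose]
  exact hle hp i j

theorem Khat_fix {p : GL Ix F × SL(2, Sx S.θ)} (hp : p ∈ S.Khat) {v : α → F} (hv : S.θ *ᵥ v = 0) :
    ((p.2 0 0 : Sx S.θ) : Matrix α α F) *ᵥ v = v := by
  have hle : S.Khat ≤ (fixSub v).comap (MonoidHom.snd _ _) := by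
    refine (Subgroup.closure_le _).2 ?_
    rintro q (⟨r, -, rfl⟩ | ⟨r, -, rfl⟩)
    · refine ⟨by simp [up], ?_, by simp [up]⟩
      change ((r • th S.θ : Sx S.θ) : Matrix α α F) *ᵥ v = 0
      rw [Subalgebra.coe_smul, smul_mulVec, show ((th S.θ : Sx S.θ) : Matrix α α F) = S.θ from rfl, hv, smul_zero]
    · exact ⟨by simp [lo], by simp [lo], by simp [lo]⟩
  exact (hle hp).1

theorem exists_rho {g : GL Ix F} (hg : g ∈ S.K) : ∃ ρ : SL(2, Sx S.θ), (g, ρ) ∈ S.Khat := by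
  obtain ⟨⟨g', ρ⟩, hp, rfl⟩ := hg
  exact ⟨ρ, hp⟩

/-- The vectors killed by the two roots are fixed. -/
theorem K_fix {g : GL Ix F} (hg : g ∈ S.K) {z : Ix → F} (hA : S.A *ᵥ z = 0) (hB : S.B *ᵥ z = 0) :
    (g : Matrix Ix Ix F) *ᵥ z = z := by
  let Q : Subgroup (GL Ix F) :=
    { carrier := {g | (g : Matrix Ix Ix F) *ᵥ z = z}
      one_mem' := by simp
      mul_mem' := fun {a c} ha hc => by
        change ((a * c : GL Ix F) : Matrix Ix Ix F) *ᵥ z = z
        rw [Units.val_mul, ← mulVec_mulVec, hc, ha]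
      inv_mem' := fun {a} ha => by
        have ha' : (a : Matrix Ix Ix F) *ᵥ z = z := ha
        change ((a⁻¹ : GL Ix F) : Matrix Ix Ix F) *ᵥ z = z
        nth_rw 1 [← ha']
        rw [mulVec_mulVec, Units.inv_mul, one_mulVec] }
  refine S.K_le (Q := Q) (fun r _ => ?_) (fun r _ => ?_) hg
  · change (1 + r • S.A) *ᵥ z = z
    rw [add_mulVec, one_mulVec, smul_mulVec, hA, smul_zero, add_zero]
  · change (1 + r • S.B) *ᵥ z = z
    rw [add_mulVec, one_mulVec, smul_mulVec, hB, smul_zero, add_zero]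

/-- Vectors orthogonal to both blocks of columns are killed by both roots. -/
theorem killed {z : Ix → F} (h : S.Pᴴ *ᵥ z = 0) (h₁ : S.P₁ᴴ *ᵥ z = 0) : S.A *ᵥ z = 0 ∧ S.B *ᵥ z = 0 := by
  refine ⟨?_, ?_⟩
  · rw [A_eq, smul_mulVec, ← mulVec_mulVec, h, mulVec_zero, smul_zero]
  · rw [B, smul_mulVec, ← mulVec_mulVec, h₁, mulVec_zero, smul_zero]

variable [Finite F] (H : Setup M)
include H

theorem isRootA : Root M S.A := H.root_slot S.hw0 S.hw S.hd0 S.hd

theorem K_inM {g : GL Ix F} (hg : g ∈ S.K) : InM M (g : Matrix Ix Ix F) := by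
  refine ⟨g, S.K_le (fun r hr => ?_) (fun r hr => ?_) hg, rfl⟩
  · obtain ⟨y, hy, e⟩ := H.root_mem (S.isRootA H) hr
    rwa [show uni S.A S.A_sq r = y from Units.ext e.symm]
  · obtain ⟨y, hy, e⟩ := H.root_mem S.isRoot hr
    rwa [show uni S.B S.B_sq r = y from Units.ext e.symm]

theorem K_unit {g : GL Ix F} (hg : g ∈ S.K) : (g : Matrix Ix Ix F)ᴴ * (g : Matrix Ix Ix F) = 1 :=
  H.unit' (S.K_inM H hg)

theorem K_inv {g : GL Ix F} (hg : g ∈ S.K) : ((g⁻¹ : GL Ix F) : Matrix Ix Ix F) = (g : Matrix Ix Ix F)ᴴ :=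
  Units.inv_eq_of_mul_eq_one_right (H.unit (S.K_inM H hg))

end Frame

end Cfsg.Agent.H58.Wreath.SU
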