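import Cfsg.Agent.H58.Wreath.SU.Layer

/-!
Conjugates of transvections of the right factor in a group with scalar layers: elementary properties.
-/

set_option autoImplicit false
set_option linter.unusedSectionVars false

namespace Cfsg.Agent.H58.Wreath.SU

open Matrix
open Cfsg.Agent.H99.Tensor
open Cfsg.Agent.H99.TensorU (sp ct ct_one ct_add partner exists_skew lft_conjTranspose rgt_conjTranspose kron_conjTranspose sp_star sp_zero_comm)
open scoped Kronecker

variable {F : Type*} [Field F] [StarRing F] {α : Type} [Fintype α] [DecidableEq α] {b : ℕ}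

local notation "Ix" => α × Fin b

/-- A transvection of the right factor, less the identity. -/
def rootA (α : Type) [Fintype α] [DecidableEq α] (w : Fin b → F) (d : F) : Matrix (α × Fin b) (α × Fin b) F :=
  d • (lft α w * rgt α (star w))

theorem rootA_kron (w : Fin b → F) (d : F) :
    rootA α w d = (1 : Matrix α α F) ⊗ₖ (d • vecMulVec w (star w)) := by
  rw [rootA, lft_mul_rgt, kronecker_smul]

theorem rgt_star_lft (u w : Fin b → F) : rgt α (star u) * lft α w = sp u w • (1 : Matrix α α F) := by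
  rw [rgt_mul_lft]; rfl

theorem ct_smul (c : F) (X : Matrix Ix Ix F) (u w : Fin b → F) : ct α (c • X) u w = c • ct α X u w := by
  rw [ct, ct, Matrix.mul_smul, Matrix.smul_mul]

theorem ct_left (G : Matrix α α F) (u w : Fin b → F) :
    ct α (G ⊗ₖ (1 : Matrix (Fin b) (Fin b) F)) u w = sp u w • G := by
  rw [ct, Matrix.mul_assoc, kron_lft, one_mulVec, ← Matrix.mul_assoc, rgt_star_lft, Matrix.smul_mul, Matrix.one_mul]

theorem ct_mid (X : Matrix Ix Ix F) (w : Fin b → F) (d : F) (Y : Matrix Ix Ix F) (u v : Fin b → F) :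
    ct α (X * rootA α w d * Y) u v = d • (ct α X u w * ct α Y w v) := by
  simp only [ct, rootA, Matrix.mul_smul, Matrix.smul_mul, Matrix.mul_assoc]

variable [Finite F] {M : Subgroup (GL (α × Fin b) F)} (H : Setup M)
include H

theorem Setup.exists_partner {w : Fin b → F} (hw0 : w ≠ 0) (hw : sp w w = 0) :
    ∃ v : Fin b → F, sp v v = 0 ∧ sp w v = 1 ∧ sp v w = 1 := partner H.ns hw0 hw

theorem Setup.rootA_sq {w : Fin b → F} (hw : sp w w = 0) (d : F) : rootA α w d * rootA α w d = 0 := by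
  simp only [rootA, Matrix.smul_mul, Matrix.mul_smul, Matrix.mul_assoc]
  rw [← Matrix.mul_assoc (rgt α (star w)), rgt_star_lft, hw, zero_smul, Matrix.zero_mul, Matrix.mul_zero, smul_zero,
    smul_zero]

/-- A transvection of the right factor is a root. -/
theorem Setup.root_slot {w : Fin b → F} {d : F} (hw0 : w ≠ 0) (hw : sp w w = 0) (hd0 : d ≠ 0)
    (hd : star d = -d) : Root M (rootA α w d) := by
  obtain ⟨v, -, -, hvw⟩ := H.exists_partner hw0 hw
  refine ⟨d, lft α w, rgt α (star v), hd0, hd, ?_, ?_, ?_, fun r hr => ?_⟩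
  · rw [rgt_star_lft, hvw, one_smul]
  · rw [lft_conjTranspose, rgt_star_lft, hw, zero_smul]
  · rw [lft_conjTranspose, rootA]
  · have := H.trans (α := α) (d := r * d) hw (by rw [star_mul', hr, hd]; ring)
    rwa [smul_kronecker, ← lft_mul_rgt, mul_smul] at this

theorem Setup.root_conj {B : Matrix Ix Ix F} (hB : Root M B) {X : Matrix Ix Ix F} (hX : InM M X) :
    Root M (X * B * Xᴴ) := by
  obtain ⟨d, P₁, L, hd0, hd, hL, hP, rfl, hmem⟩ := hB
  refine ⟨d, X * P₁, L * Xᴴ, hd0, hd, ?_, ?_, ?_, fun r hr => ?_⟩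
  · rw [Matrix.mul_assoc, ← Matrix.mul_assoc Xᴴ, H.unit' hX, Matrix.one_mul, hL]
  · rw [conjTranspose_mul, Matrix.mul_assoc, ← Matrix.mul_assoc Xᴴ, H.unit' hX, Matrix.one_mul, hP]
  · rw [conjTranspose_mul, Matrix.mul_smul, Matrix.smul_mul]
    simp only [Matrix.mul_assoc]
  · have := H.conj (hmem r hr) hX
    rwa [Matrix.mul_smul, Matrix.smul_mul] at this

theorem Setup.root_sq {B : Matrix Ix Ix F} (hB : Root M B) : B * B = 0 := by
  obtain ⟨d, P₁, L, hd0, hd, hL, hP, rfl, hmem⟩ := hB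
  simp only [Matrix.smul_mul, Matrix.mul_smul, Matrix.mul_assoc]
  rw [← Matrix.mul_assoc P₁ᴴ P₁, hP, Matrix.zero_mul, Matrix.mul_zero, smul_zero, smul_zero]

theorem Setup.root_skew {B : Matrix Ix Ix F} (hB : Root M B) : Bᴴ = -B := by
  obtain ⟨d, P₁, L, hd0, hd, hL, hP, rfl, hmem⟩ := hB
  rw [conjTranspose_smul, conjTranspose_mul, conjTranspose_conjTranspose, hd, neg_smul]

theorem Setup.root_mem {B : Matrix Ix Ix F} (hB : Root M B) {r : F} (hr : star r = r) : InM M (1 + r • B) := by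
  obtain ⟨d, P₁, L, hd0, hd, hL, hP, rfl, hmem⟩ := hB
  exact hmem r hr

theorem Setup.root_one {B : Matrix Ix Ix F} (hB : Root M B) : InM M (1 + B) := by
  simpa using H.root_mem hB (star_one F)

theorem Setup.root_smul {B : Matrix Ix Ix F} (hB : Root M B) {s : F} (hs0 : s ≠ 0) (hs : star s = s) :
    Root M (s • B) := by
  obtain ⟨d, P₁, L, hd0, hd, hL, hP, rfl, hmem⟩ := hB
  refine ⟨s * d, P₁, L, mul_ne_zero hs0 hd0, by rw [star_mul', hs, hd]; ring, hL, hP, smul_smul _ _ _, fun r hr => ?_⟩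
  rw [smul_smul]
  exact hmem (r * s) (by rw [star_mul', hr, hs])

/-- A root with a vanishing contraction is pure. -/
theorem Setup.root_ct_zero {B : Matrix Ix Ix F} (hB : Root M B) {w : Fin b → F} (hw0 : w ≠ 0) (hw : sp w w = 0)
    (hx : ct α B w w = 0) : IsPure (1 + B) := by
  by_contra hnp
  exact H.ct_ne (H.root_one hB) hnp hw0 hw hw0 hw (by rw [ct_add, ct_one, hw, zero_smul, zero_add, hx])

theorem Setup.ct_root_skew {B : Matrix Ix Ix F} (hB : Root M B) (u w : Fin b → F) :
    (ct α B u w)ᴴ = -ct α B w u := by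
  rw [H99.TensorU.ct_conjTranspose, H.root_skew hB, ← neg_one_smul F B, ct_smul, neg_one_smul]

/-- A root commuting with a transvection of the right factor has a vanishing contraction. -/
theorem Setup.ct_zero_of_comm [Nonempty α] {B : Matrix Ix Ix F} {w : Fin b → F} {d : F} (hw0 : w ≠ 0)
    (hw : sp w w = 0) (hd0 : d ≠ 0) (h : rootA α w d * B = B * rootA α w d) : ct α B w w = 0 := by
  obtain ⟨v, -, hwv, hvw⟩ := H.exists_partner hw0 hw
  have e : rootA α w d * B * rootA α w d = 0 := by rw [h, Matrix.mul_assoc, H.rootA_sq hw, Matrix.mul_zero]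
  have e2 : (d * d) • (lft α w * (ct α B w w * rgt α (star w))) = 0 := by
    rw [← e]
    simp only [rootA, ct, Matrix.smul_mul, Matrix.mul_smul, smul_smul, Matrix.mul_assoc]
  have e3 := congrArg (fun T => rgt α (star v) * T * lft α v) ((smul_eq_zero.1 e2).resolve_left (mul_ne_zero hd0 hd0))
  simp only [← Matrix.mul_assoc, rgt_star_lft, hvw, one_smul, Matrix.one_mul, Matrix.mul_zero, Matrix.zero_mul] at e3
  rwa [Matrix.mul_assoc, rgt_star_lft, hwv, one_smul, Matrix.mul_one] at e3

/-- An element sending a transvection of the right factor into the right factor is pure. -/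
theorem Setup.pure_of_map [Nonempty α] {X : Matrix Ix Ix F} (hX : InM M X) {w : Fin b → F} {d : F} (hw0 : w ≠ 0)
    (hw : sp w w = 0) (hd0 : d ≠ 0) (hd : star d = -d) {N : Matrix (Fin b) (Fin b) F}
    (hN : X * rootA α w d * Xᴴ = (1 : Matrix α α F) ⊗ₖ N) : IsPure X := by
  have := H.neZero
  have hroot := H.root_conj (H.root_slot hw0 hw hd0 hd) hX
  set P := X * lft α w with hP
  have hB : (1 : Matrix α α F) ⊗ₖ N = d • (P * Pᴴ) := by
    rw [← hN, hP, conjTranspose_mul, lft_conjTranspose, rootA, Matrix.mul_smul, Matrix.smul_mul]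
    simp only [Matrix.mul_assoc]
  obtain ⟨v, -, hwv, hvw⟩ := H.exists_partner hw0 hw
  have hinj : ∀ a : α → F, P *ᵥ a = 0 → a = 0 := fun a ha => by
    have := congrArg ((rgt α (star v) * Xᴴ) *ᵥ ·) ha
    simpa [hP, mulVec_mulVec, Matrix.mul_assoc, ← Matrix.mul_assoc Xᴴ, H.unit' hX, rgt_star_lft, hvw] using this
  obtain ⟨x, hx⟩ : ∃ x : Fin b → F, N *ᵥ x ≠ 0 := by
    by_contra hc
    push Not at hc
    have h0 : N = 0 := Matrix.ext_of_mulVec_single fun j => by rw [hc, Matrix.zero_mulVec]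
    rw [h0, kronecker_zero, eq_comm, smul_eq_zero, or_iff_right hd0] at hB
    obtain ⟨i⟩ := ‹Nonempty α›
    have e := congrArg (Xᴴ * · * (X * lft α v)) hB
    simp only [hP, conjTranspose_mul, lft_conjTranspose, Matrix.mul_assoc, Matrix.mul_zero, Matrix.zero_mul] at e
    rw [← Matrix.mul_assoc Xᴴ X, H.unit' hX, Matrix.one_mul] at e
    rw [← Matrix.mul_assoc Xᴴ X, H.unit' hX, Matrix.one_mul, rgt_star_lft, hwv, one_smul, Matrix.mul_one] at e
    obtain ⟨k, hk⟩ := Function.ne_iff.1 hw0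
    exact hk (by simpa [lft_apply] using congrFun (congrFun e (i, k)) i)
  set n := N *ᵥ x with hn
  set R := d • (Pᴴ * lft α x) with hR
  have hPR : P * R = lft α n := by
    rw [hR, Matrix.mul_smul, ← Matrix.mul_assoc, ← Matrix.smul_mul, ← hB, kron_lft, Matrix.mul_one]
  have hRu : IsUnit R.det := by
    rw [isUnit_iff_ne_zero]
    intro h0
    obtain ⟨a, ha0, ha⟩ := (Matrix.exists_mulVec_eq_zero_iff (M := R)).2 h0
    have := congrArg (· *ᵥ a) hPR
    simp only [← mulVec_mulVec, ha, mulVec_zero] at this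
    obtain ⟨k, hk⟩ := Function.ne_iff.1 hx
    refine ha0 (funext fun j => ?_)
    have e := congrFun this (j, k)
    simp [mulVec, dotProduct, lft_apply] at e
    exact e.resolve_left hk
  have hgP : P = lft α n * R⁻¹ := by
    rw [← hPR, Matrix.mul_assoc, Matrix.mul_nonsing_inv _ hRu, Matrix.mul_one]
  have hnn : sp n n = 0 := by
    have e : Pᴴ * P = 0 := by
      rw [hP, conjTranspose_mul, Matrix.mul_assoc, ← Matrix.mul_assoc Xᴴ, H.unit' hX, Matrix.one_mul,
        lft_conjTranspose, rgt_star_lft, hw, zero_smul]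
    have e2 : (P * R)ᴴ * (P * R) = 0 := by
      rw [conjTranspose_mul, Matrix.mul_assoc, ← Matrix.mul_assoc Pᴴ, e, Matrix.zero_mul, Matrix.mul_zero]
    rw [hPR, lft_conjTranspose, rgt_star_lft, smul_eq_zero] at e2
    exact e2.resolve_right one_ne_zero
  exact H.pure_of_layer hw0 hw hx hnn hX hgP (Matrix.isUnit_nonsing_inv_det R hRu)

end Cfsg.Agent.H58.Wreath.SU
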