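import Cfsg.Agent.H99.TensorU.Layer
import Cfsg.Agent.H5.C7.Split

/-!
Groups of isometries of a tensor power of a hermitian space containing the factor groups: the setting at one
factor.
-/

set_option autoImplicit false
set_option linter.unusedSectionVars false

namespace Cfsg.Agent.H58.Wreath.SU

open Matrix
open Cfsg.Agent.H99.Tensor
open Cfsg.Agent.H5.C7 (wm sl pv rI slotM)
open scoped Kronecker

variable {F : Type*} [Field F] [StarRing F]

section Two

variable {α : Type} [Fintype α] [DecidableEq α] {b : ℕ}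

/-- A group of isometries containing the right factor in which the layers are scalar. -/
structure Setup (M : Subgroup (GL (α × Fin b) F)) : Prop where
  iso : ∀ y ∈ M, (y : Matrix (α × Fin b) (α × Fin b) F) * (y : Matrix (α × Fin b) (α × Fin b) F)ᴴ = 1
  right : ∀ k : Matrix (Fin b) (Fin b) F, k * kᴴ = 1 → k.det = 1 → InM M ((1 : Matrix α α F) ⊗ₖ k)
  three : 3 ≤ b
  big : 4 ≤ b ∨ ∃ r : F, star r = r ∧ r ≠ 0 ∧ r ≠ 1
  ns : ∃ x : F, star x ≠ x
  good : H99.TensorU.Good M

/-- A skew square-zero matrix of the rank of a transvection of the right factor, with its line in the group. -/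
def Root (M : Subgroup (GL (α × Fin b) F)) (B : Matrix (α × Fin b) (α × Fin b) F) : Prop :=
  ∃ (d : F) (P₁ : Matrix (α × Fin b) α F) (L : Matrix α (α × Fin b) F),
    d ≠ 0 ∧ star d = -d ∧ L * P₁ = 1 ∧ P₁ᴴ * P₁ = 0 ∧ B = d • (P₁ * P₁ᴴ) ∧
      ∀ r : F, star r = r → InM M (1 + r • B)

end Two

section Amb

variable {ι : Type} [Fintype ι] [DecidableEq ι] {m : ℕ}

local notation "MM" => Matrix (ι → Fin m) (ι → Fin m) F

/-- A matrix of an element of the group. -/
def InG (M : Subgroup (GL (ι → Fin m) F)) (X : MM) : Prop := ∃ y ∈ M, (y : MM) = X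

/-- A group of isometries containing the factor groups, and the permutations up to scalars from three factors on. -/
structure Amb (M : Subgroup (GL (ι → Fin m) F)) : Prop where
  ns : ∃ x : F, star x ≠ x
  three : 3 ≤ m
  big : 4 ≤ m ∨ ∃ r : F, star r = r ∧ r ≠ 0 ∧ r ≠ 1
  two : 2 ≤ Fintype.card ι
  iso : ∀ y ∈ M, (y : Matrix (ι → Fin m) (ι → Fin m) F) * (y : Matrix (ι → Fin m) (ι → Fin m) F)ᴴ = 1
  slot : ∀ (i : ι) (h : Matrix (Fin m) (Fin m) F), h * hᴴ = 1 → h.det = 1 → InG M (sl i h)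
  perm : 3 ≤ Fintype.card ι → ∀ σ : Equiv.Perm ι, ∃ c : F, InG M (c • wm σ fun _ => 1)

/-- Scalar layers at a factor. -/
def Good (M : Subgroup (GL (ι → Fin m) F)) (i : ι) : Prop := H99.TensorU.Good (slotM i M)

/-- All transvections centred at the vector. -/
def Centre (M : Subgroup (GL (ι → Fin m) F)) (v : (ι → Fin m) → F) : Prop :=
  ∀ d : F, star d = -d → InG M (1 + d • vecMulVec v (star v))

theorem rI_conjTranspose (i : ι) (X : MM) : rI i Xᴴ = (rI i X)ᴴ := rfl

variable {M : Subgroup (GL (ι → Fin m) F)}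

theorem Amb.setup (A : Amb M) (i : ι) (hgood : Good M i) : Setup (slotM i M) where
  iso := fun y hy => by
    obtain ⟨x, hx, e⟩ := H5.C7.inM_slotM.1 (⟨y, hy, rfl⟩ : InM (slotM i M) (y : Matrix _ _ F))
    rw [← e, ← rI_conjTranspose, ← map_mul, A.iso x hx, map_one]
  right := fun k hk hd => by
    obtain ⟨y, hy, e⟩ := A.slot i k hk hd
    exact H5.C7.inM_slotM.2 ⟨y, hy, by rw [e, H5.C7.rI_sl_self]⟩
  three := A.three
  big := A.big
  ns := A.ns
  good := hgood

end Amb

end Cfsg.Agent.H58.Wreath.SU
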