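import Cfsg.Agent.H58.Wreath.SU.Cent
import Cfsg.Agent.H83.TensorWreathSU.Split
import Cfsg.Agent.H67.DualRank

/-!
Shifted frames: the invariant of a root that is not pure is not nilpotent, and powers of it occur as invariants
of fine frames.
-/

set_option autoImplicit false
set_option linter.unusedSectionVars false

namespace Cfsg.Agent.H58.Wreath.SU

open Matrix Module
open Cfsg.Agent.H99.Tensor
open Cfsg.Agent.H99.TensorU (sp ct exists_skew lft_conjTranspose rgt_conjTranspose)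
open Cfsg.Agent.H58.Wreath.Sp (Sx th)
open scoped Kronecker

variable {F : Type*} [Field F] [StarRing F] {α : Type} [Fintype α] [DecidableEq α] {b : ℕ}

local notation "Ix" => α × Fin b

theorem rgt_mul_left (φ : Fin b → F) (G : Matrix α α F) :
    rgt α φ * (G ⊗ₖ (1 : Matrix (Fin b) (Fin b) F)) = G * rgt α φ := by
  ext i ⟨j, k⟩
  simp [Matrix.mul_apply, rgt, kroneckerMap_apply, Fintype.sum_prod_type, Matrix.one_apply, mul_comm,
    eq_comm]

theorem rank_star [Finite F] (X : Matrix α α F) : Xᴴ.rank = X.rank := by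
  rw [Matrix.conjTranspose, ← Matrix.rank_transpose X]
  exact H67.rank_map_eq (σ := starRingEnd F) (fun x => star_star x) Xᵀ

/-- Kernels of powers are stable from the size on. -/
theorem pow_mulVec_zero {x : Matrix α α F} {m k : ℕ} (hm : Fintype.card α ≤ m) {v : α → F}
    (h : (x ^ (m + k)) *ᵥ v = 0) : (x ^ m) *ᵥ v = 0 := by
  have hf : finrank F (α → F) ≤ m := by rwa [finrank_fintype_fun_eq_card]
  have hk : finrank F (α → F) ≤ m + k := hf.trans (Nat.le_add_right _ _)
  have e : LinearMap.ker (Matrix.toLin' x ^ (m + k)) = LinearMap.ker (Matrix.toLin' x ^ m) := by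
    rw [Module.End.ker_pow_eq_ker_pow_finrank_of_le hk, Module.End.ker_pow_eq_ker_pow_finrank_of_le hf]
  have : v ∈ LinearMap.ker (Matrix.toLin' x ^ (m + k)) := by
    rw [LinearMap.mem_ker, ← Matrix.toLin'_pow, Matrix.toLin'_apply, h]
  rwa [e, LinearMap.mem_ker, ← Matrix.toLin'_pow, Matrix.toLin'_apply] at this

variable [Finite F] {M : Subgroup (GL (α × Fin b) F)} (H : Setup M)
include H

/-- A root and an isotropic vector make a frame. -/
theorem Setup.exists_frame {B : Matrix Ix Ix F} (hB : Root M B) {w : Fin b → F} (hw0 : w ≠ 0)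
    (hw : sp w w = 0) : ∃ S : Frame M, S.w = w ∧ S.B = B := by
  obtain ⟨d₁, P₁, L, h0, hd₁, hL, hP, rfl, hmem⟩ := hB
  obtain ⟨d, hd0, hd⟩ := exists_skew H.ns
  exact ⟨⟨w, d, d₁, P₁, L, hw0, hw, hd0, hd, h0, hd₁, hL, hP, hmem⟩, rfl, rfl⟩

/-- A pure root with a pure multiple is pure. -/
theorem Setup.pure_smul [Nonempty α] {B : Matrix Ix Ix F} (hB : Root M B) {r : F} (hr0 : r ≠ 0) (hr : star r = r)
    (h : IsPure (1 + r • B)) : IsPure (1 + B) := by
  rcases H83.TensorWreathSU.root_split H (H.root_smul hB hr0 hr) h with ⟨G, hG⟩ | ⟨N, hN⟩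
  · refine ⟨1 + r⁻¹ • G, 1, ?_⟩
    rw [add_kronecker, one_kronecker_one, smul_kronecker, ← hG, smul_smul, inv_mul_cancel₀ hr0, one_smul]
  · refine ⟨1, 1 + r⁻¹ • N, ?_⟩
    rw [kronecker_add, one_kronecker_one, kronecker_smul, ← hN, smul_smul, inv_mul_cancel₀ hr0, one_smul]

namespace Frame

variable (S : Frame M)

theorem sq_eq (r : F) : (1 + r • S.B)ᴴ = 1 - star r • S.B := by
  rw [conjTranspose_add, conjTranspose_one, conjTranspose_smul, H.root_skew S.isRoot, smul_neg, ← sub_eq_add_neg]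

theorem shift_P {r : F} (hr : star r = r) :
    S.Pᴴ * ((1 + r • S.B) * S.P) = (r / S.d) • S.θ ∧
      ((1 + r • S.B) * S.P)ᴴ * S.P = (-(r / S.d)) • S.θ := by
  have e : S.Pᴴ * S.B * S.P = S.d⁻¹ • S.θ := by
    rw [← S.θ_ct, ct, P, lft_conjTranspose]
  have e1 : S.Pᴴ * ((1 + r • S.B) * S.P) = (r / S.d) • S.θ := by
    rw [Matrix.add_mul, Matrix.one_mul, Matrix.smul_mul, Matrix.mul_add, S.PP, zero_add, Matrix.mul_smul,
      ← Matrix.mul_assoc, e, smul_smul, div_eq_mul_inv]
  refine ⟨e1, ?_⟩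
  have := congrArg Matrix.conjTranspose e1
  rw [conjTranspose_mul, conjTranspose_conjTranspose, conjTranspose_smul, S.θ_conjTranspose, star_div₀, hr, S.hd,
    div_neg] at this
  exact this

/-- The frame of the conjugate of the transvection by an element of the root line. -/
theorem exists_shift {r : F} (hr : star r = r) :
    ∃ S' : Frame M, S'.w = S.w ∧ S'.B = (1 + r • S.B) * S.A * (1 + r • S.B)ᴴ ∧
      S'.θ = (-(r * r)) • (S.θ * S.θ) ∧ S'.Cᴴ = (-(r / S.d)) • S.θ := by
  obtain ⟨v, -, hwv, hvw⟩ := H.exists_partner S.hw0 S.hw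
  set Y := (1 : Matrix Ix Ix F) + r • S.B with hY
  have hYM : InM M Y := H.root_mem S.isRoot hr
  have hB : Y * S.A * Yᴴ = S.d • (Y * S.P * (Y * S.P)ᴴ) := by
    rw [A_eq, Matrix.mul_smul, Matrix.smul_mul, conjTranspose_mul]
    simp only [Matrix.mul_assoc]
  let S' : Frame M :=
    { w := S.w, d := S.d, d₁ := S.d, P₁ := Y * S.P, L := rgt α (star v) * Yᴴ
      hw0 := S.hw0, hw := S.hw, hd0 := S.hd0, hd := S.hd, hd₁0 := S.hd0, hd₁ := S.hd
      hL := by
        rw [Matrix.mul_assoc, ← Matrix.mul_assoc Yᴴ, H.unit' hYM, Matrix.one_mul, P, rgt_star_lft, hvw, one_smul]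
      hP₁ := by
        rw [conjTranspose_mul, Matrix.mul_assoc, ← Matrix.mul_assoc Yᴴ, H.unit' hYM, Matrix.one_mul, S.PP]
      hmem := fun s hs => by
        rw [← hB]
        exact H.root_mem (H.root_conj (S.isRootA H) hYM) hs }
  have hC : S'.Cᴴ = (-(r / S.d)) • S.θ := by
    rw [C_conjTranspose]
    exact (S.shift_P H hr).2
  refine ⟨S', rfl, hB.symm, ?_, hC⟩
  have hC2 : S'.C = star (-(r / S.d)) • S.θ := by
    have e := congrArg Matrix.conjTranspose hC
    rwa [conjTranspose_conjTranspose, conjTranspose_smul, S.θ_conjTranspose] at e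
  rw [θ_eq, hC, hC2, Matrix.smul_mul, Matrix.mul_smul, smul_smul, smul_smul]
  congr 1
  show S.d * S.d * star (-(r / S.d)) * (-(r / S.d)) = _
  have := S.hd0
  rw [star_neg, star_div₀, hr, S.hd]
  field_simp

/-- The square of the invariant of a root that is not pure does not vanish. -/
theorem sq_ne [Nonempty α] (hnp : ¬ IsPure (1 + S.B)) : S.θ * S.θ ≠ 0 := by
  intro h0
  have := H.neZero
  obtain ⟨v, -, hwv, hvw⟩ := H.exists_partner S.hw0 S.hw
  set X := rgt α (star v) * (S.B * S.P) with hX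
  have key : ∀ r : F, r ≠ 0 → star r = r → ∃ G Z Z' W : Matrix α α F,
      (1 + r • S.B) * S.A * (1 + r • S.B)ᴴ = G ⊗ₖ (1 : Matrix (Fin b) (Fin b) F) ∧
        1 + r • X = G * Z ∧ S.θ = G * Z' ∧ 1 + r • X = S.θ * W := by
    intro r hr0 hr
    obtain ⟨S', hw', hB', hθ', -⟩ := S.exists_shift H hr
    set Y := (1 : Matrix Ix Ix F) + r • S.B with hY
    have hYM : InM M Y := H.root_mem S.isRoot hr
    have hp : IsPure (1 + S'.B) := by
      by_contra hc
      exact S'.θ_ne H hc (by rw [hθ', h0, smul_zero])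
    rcases H83.TensorWreathSU.root_split H S'.isRoot hp with ⟨G, hG⟩ | ⟨N, hN⟩
    swap
    · exact absurd (H.pure_smul S.isRoot hr0 hr
        (H.pure_of_map hYM S.hw0 S.hw S.hd0 S.hd (N := N) (hB'.symm.trans hN))) hnp
    rw [hB'] at hG
    have hYP : Y * S.P = S.d⁻¹ • ((G ⊗ₖ (1 : Matrix (Fin b) (Fin b) F)) * (Y * lft α v)) := by
      rw [← hG, Matrix.mul_assoc, ← Matrix.mul_assoc Yᴴ, H.unit' hYM, Matrix.one_mul, A_eq, Matrix.mul_smul,
        Matrix.smul_mul, smul_smul, inv_mul_cancel₀ S.hd0, one_smul, P, lft_conjTranspose, Matrix.mul_assoc Y,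
        Matrix.mul_assoc (lft α S.w), rgt_star_lft, hwv, one_smul, Matrix.mul_one]
    have hvP : rgt α (star v) * (Y * S.P) = 1 + r • X := by
      rw [hY, Matrix.add_mul, Matrix.one_mul, Matrix.mul_add, Matrix.smul_mul, Matrix.mul_smul, hX, P, rgt_star_lft,
        hvw, one_smul]
    have hwP : rgt α (star S.w) * (Y * S.P) = (r / S.d) • S.θ := by
      rw [← lft_conjTranspose]; exact (S.shift_P H hr).1
    have hGe : G = (S.d * (r / S.d)) • (S.θ * (1 + r • X)ᴴ) := by
      have e : rgt α (star S.w) * (G ⊗ₖ (1 : Matrix (Fin b) (Fin b) F)) * lft α v = G := by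
        rw [rgt_mul_left, Matrix.mul_assoc, rgt_star_lft, hwv, one_smul, Matrix.mul_one]
      have e2 : ∀ T : Matrix α α F, (S.d * (r / S.d)) • (S.θ * T) = S.d • ((r / S.d) • S.θ * T) := fun T => by
        rw [Matrix.smul_mul, smul_smul]
      rw [← e, ← hG, e2, ← hwP, ← hvP, A_eq]
      simp only [conjTranspose_mul, rgt_conjTranspose, Matrix.mul_smul, Matrix.smul_mul, Matrix.mul_assoc]
    set Z := S.d⁻¹ • (rgt α (star v) * (Y * lft α v)) with hZd
    have hz : 1 + r • X = G * Z := by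
      rw [← hvP, hYP, hZd, Matrix.mul_smul, ← Matrix.mul_assoc, rgt_mul_left, Matrix.mul_smul, Matrix.mul_assoc]
    refine ⟨G, Z, r⁻¹ • (rgt α (star S.w) * (Y * lft α v)),
      (S.d * (r / S.d)) • ((1 + r • X)ᴴ * Z), hG, hz, ?_, ?_⟩
    · have e := hwP
      rw [hYP, Matrix.mul_smul, ← Matrix.mul_assoc, rgt_mul_left, Matrix.mul_assoc, inv_smul_eq_iff₀ S.hd0,
        smul_smul, mul_div_cancel₀ _ S.hd0] at e
      rw [Matrix.mul_smul, e, smul_smul, inv_mul_cancel₀ hr0, one_smul]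
    · refine hz.trans ?_
      calc G * Z = ((S.d * (r / S.d)) • (S.θ * (1 + r • X)ᴴ)) * Z := by rw [← hGe]
        _ = _ := by simp only [Matrix.smul_mul, Matrix.mul_smul, Matrix.mul_assoc]
  rcases H.big with hb | ⟨r₀, hr₀, hr00, hr01⟩
  · obtain ⟨G, Z, Z', -, hG, hZ, hZ', -⟩ := key 1 one_ne_zero (star_one F)
    set Y := (1 : Matrix Ix Ix F) + (1 : F) • S.B with hY
    have hYM : InM M Y := H.root_mem S.isRoot (star_one F)
    have hYP : Y * S.A * Yᴴ = S.d • (Y * S.P * (Y * S.P)ᴴ) := by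
      rw [A_eq, Matrix.mul_smul, Matrix.smul_mul, conjTranspose_mul]
      simp only [Matrix.mul_assoc]
    -- the kernel of the contraction is in the image
    have h1 : finrank F (LinearMap.ker S.Cᴴ.mulVecLin) ≤ finrank F (LinearMap.range G.mulVecLin) := by
      refine Submodule.finrank_mono fun a (ha : S.Cᴴ *ᵥ a = 0) => ⟨Z *ᵥ a, ?_⟩
      have e : S.B * S.P = S.d₁ • (S.P₁ * S.Cᴴ) := S.BP_eq
      rw [Matrix.mulVecLin_apply, mulVec_mulVec, ← hZ, one_smul, add_mulVec, one_mulVec, hX, e, Matrix.mul_smul,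
        ← Matrix.mul_assoc, smul_mulVec, ← mulVec_mulVec, ha, mulVec_zero, smul_zero, add_zero]
    -- the image is small
    have h2 : b * finrank F (LinearMap.range G.mulVecLin) ≤ Fintype.card α := by
      let Φ : (Fin b → LinearMap.range G.mulVecLin) →ₗ[F] (Ix → F) :=
        { toFun := fun f p => (f p.2 : α → F) p.1, map_add' := fun f g => rfl, map_smul' := fun c f => rfl }
      have hΦi : Function.Injective Φ := fun f g e =>
        funext fun k => Subtype.ext (funext fun j => congrFun e (j, k))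
      have hle : LinearMap.range Φ ≤ LinearMap.range (Y * S.P).mulVecLin := by
        rintro _ ⟨f, rfl⟩
        choose y hy using fun k => (f k).2
        refine ⟨((S.d • (Y * S.P)ᴴ) *ᵥ fun p => y p.2 p.1), ?_⟩
        rw [Matrix.mulVecLin_apply, mulVec_mulVec, Matrix.mul_smul, ← hYP, hG]
        funext p
        simp only [Φ, LinearMap.coe_mk, AddHom.coe_mk, ← hy p.2, Matrix.mulVecLin_apply]
        simp [Matrix.mulVec, dotProduct, kroneckerMap_apply, Fintype.sum_prod_type, Matrix.one_apply]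
      have a1 := (Submodule.finrank_mono hle).trans ((Y * S.P).rank_le_card_width)
      rw [LinearMap.finrank_range_of_inj hΦi, Module.finrank_pi_fintype] at a1
      simpa using a1
    -- the invariant has large rank
    have h3 : Fintype.card α ≤ S.θ.rank + 2 * finrank F (LinearMap.ker S.Cᴴ.mulVecLin) := by
      have hk : LinearMap.ker S.θ.mulVecLin ≤ Submodule.comap S.Cᴴ.mulVecLin (LinearMap.ker S.C.mulVecLin) := by
        intro a (ha : S.θ *ᵥ a = 0)
        rw [θ_eq, smul_mulVec, smul_eq_zero, ← mulVec_mulVec] at ha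
        exact ha.resolve_left (mul_ne_zero S.hd0 S.hd₁0)
      let f : LinearMap.ker S.θ.mulVecLin →ₗ[F] LinearMap.ker S.C.mulVecLin := S.Cᴴ.mulVecLin.restrict hk
      have a1 := LinearMap.finrank_range_add_finrank_ker f
      have a2 : finrank F (LinearMap.ker f) ≤ finrank F (LinearMap.ker S.Cᴴ.mulVecLin) := by
        let g : LinearMap.ker f →ₗ[F] LinearMap.ker S.Cᴴ.mulVecLin :=
          { toFun := fun a => ⟨a.1.1, congrArg Subtype.val a.2⟩, map_add' := fun _ _ => rfl
            map_smul' := fun _ _ => rfl }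
        exact LinearMap.finrank_le_finrank_of_injective (f := g) fun a a' e =>
          Subtype.ext (Subtype.ext (Subtype.ext_iff.1 e :))
      have a3 := Submodule.finrank_le (LinearMap.range f)
      have a4 := LinearMap.finrank_range_add_finrank_ker S.θ.mulVecLin
      have a5 := LinearMap.finrank_range_add_finrank_ker S.Cᴴ.mulVecLin
      have a6 := LinearMap.finrank_range_add_finrank_ker S.C.mulVecLin
      have a7 : S.Cᴴ.rank = S.C.rank := rank_star S.C
      rw [finrank_fintype_fun_eq_card] at a4 a5 a6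
      unfold Matrix.rank at a7 ⊢
      omega
    have h4 : S.θ.rank ≤ finrank F (LinearMap.range G.mulVecLin) := by
      rw [hZ']; exact Matrix.rank_mul_le_left _ _
    have h5 : 0 < Fintype.card α := Fintype.card_pos
    nlinarith
  · obtain ⟨-, -, -, W, -, -, -, hW⟩ := key 1 one_ne_zero (star_one F)
    obtain ⟨-, -, -, W', -, -, -, hW'⟩ := key r₀ hr00 hr₀
    have e : (1 : Matrix α α F) = S.θ * ((r₀ - 1)⁻¹ • (r₀ • W - W')) := by
      rw [Matrix.mul_smul, Matrix.mul_sub, Matrix.mul_smul, ← hW, ← hW', one_smul, smul_add,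
        add_sub_add_right_eq_sub]
      have := sub_ne_zero.2 hr01
      match_scalars
      field_simp
    have : S.θ = 0 := by
      rw [← Matrix.mul_one S.θ, e, ← Matrix.mul_assoc, h0, Matrix.zero_mul]
    exact S.θ_ne H hnp this

/-- Powers of the invariant occur. -/
theorem exists_iter [Nonempty α] (hnp : ¬ IsPure (1 + S.B)) (n : ℕ) :
    ∃ S' : Frame M, S'.w = S.w ∧ ¬ IsPure (1 + S'.B) ∧ (∃ c : F, S'.θ = c • S.θ ^ 2 ^ n) ∧
      ∀ m, n = m + 1 → ∃ c : F, c ≠ 0 ∧ S'.Cᴴ = c • S.θ ^ 2 ^ m := by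
  induction n with
  | zero => exact ⟨S, rfl, hnp, ⟨1, by simp⟩, by simp⟩
  | succ n ih =>
    obtain ⟨T, hw, hT, ⟨c, hc⟩, -⟩ := ih
    have hc0 : c ≠ 0 := fun h => T.θ_ne H hT (by rw [hc, h, zero_smul])
    obtain ⟨S', hw', hB', hθ', hC'⟩ := T.exists_shift H (r := 1) (star_one F)
    refine ⟨S', hw'.trans hw, fun hp => ?_, ⟨-(c * c), ?_⟩, fun m hm => ?_⟩
    · have hne := T.sq_ne H hT
      rcases H83.TensorWreathSU.root_split H S'.isRoot hp with ⟨G, hG⟩ | ⟨N, hN⟩
      · have e := S'.θ_eq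
        have e0 : S'.θ = 0 := by
          rw [θ, hG, ct_left, S'.hw, zero_smul, smul_zero]
        rw [hθ'] at e0
        simp [hne] at e0
      · exact hT (H.pure_smul T.isRoot one_ne_zero (star_one F)
          (H.pure_of_map (H.root_mem T.isRoot (star_one F)) T.hw0 T.hw T.hd0 T.hd (N := N) (hB'.symm.trans hN)))
    · rw [hθ', hc, Matrix.smul_mul, Matrix.mul_smul, ← pow_add, smul_smul, smul_smul, pow_succ]
      congr 1
      · ring
      · congr 1; omega
    · obtain rfl : m = n := by omega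
      exact ⟨-(1 / T.d) * c, mul_ne_zero (neg_ne_zero.2 (div_ne_zero one_ne_zero T.hd0)) hc0, by
        rw [hC', hc, smul_smul]⟩

theorem not_nilpotent [Nonempty α] (hnp : ¬ IsPure (1 + S.B)) : ¬ IsNilpotent S.θ := by
  rintro ⟨n, hn⟩
  obtain ⟨S', -, hnp', ⟨c, hc⟩, -⟩ := S.exists_iter H hnp n
  refine S'.θ_ne H hnp' ?_
  rw [hc, show 2 ^ n = n + (2 ^ n - n) from (Nat.add_sub_cancel' Nat.lt_two_pow_self.le).symm, pow_add, hn,
    Matrix.zero_mul, smul_zero]

omit H in
theorem red_pow (h2 : (2 : F) = 0) {x : Matrix α α F} {N : ℕ} (hN : Fintype.card α ≤ 2 ^ N) (c : F) :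
    Red (c • x ^ 2 ^ N) := by
  have : CharP F 2 := CharTwo.of_one_ne_zero_of_two_eq_zero one_ne_zero h2
  have : ExpChar F 2 := ExpChar.prime Nat.prime_two
  have hroot : ∀ a : F, ∃ a' : F, a' ^ 2 ^ N = a := fun a =>
    (Finite.injective_iff_surjective.1 (iterateFrobenius F 2 N).injective) a
  intro e he
  rcases isEmpty_or_nonempty α with hα | hα
  · exact Subtype.ext (Matrix.ext fun i => isEmptyElim i)
  have hcp : CharP (Sx x) 2 := charP_of_injective_algebraMap (algebraMap F (Sx x)).injective 2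
  obtain ⟨g, hg⟩ : ∃ g : Sx x, (e : Matrix α α F) = (g : Matrix α α F) ^ 2 ^ N := by
    refine Algebra.adjoin_induction (s := {c • x ^ 2 ^ N})
      (p := fun y _ => ∃ g : Sx x, y = (g : Matrix α α F) ^ 2 ^ N) ?_ ?_ ?_ ?_ e.2
    · rintro y rfl
      obtain ⟨c', rfl⟩ := hroot c
      exact ⟨c' • th x, by rw [Subalgebra.coe_smul, smul_pow]; rfl⟩
    · intro a
      obtain ⟨a', rfl⟩ := hroot a
      exact ⟨algebraMap F (Sx x) a', by simp⟩
    · rintro y z - - ⟨g, rfl⟩ ⟨h, rfl⟩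
      exact ⟨g + h, by rw [← Subalgebra.coe_pow, ← Subalgebra.coe_pow, ← Subalgebra.coe_pow, add_pow_char_pow,
        Subalgebra.coe_add]⟩
    · rintro y z - - ⟨g, rfl⟩ ⟨h, rfl⟩
      exact ⟨g * h, by rw [← Subalgebra.coe_pow, ← Subalgebra.coe_pow, ← Subalgebra.coe_pow, mul_pow,
        Subalgebra.coe_mul]⟩
  refine Subtype.ext (hg.trans ?_)
  rw [ZeroMemClass.coe_zero]
  have he' := congrArg Subtype.val he
  rw [Subalgebra.coe_mul, hg, ← pow_add, ZeroMemClass.coe_zero] at he'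
  refine Matrix.ext_of_mulVec_single fun j => ?_
  rw [Matrix.zero_mulVec]
  exact pow_mulVec_zero hN (by rw [he', Matrix.zero_mulVec])

/-- A fine frame at the same vector. -/
theorem exists_fine [Nonempty α] (hnp : ¬ IsPure (1 + S.B)) :
    ∃ S' : Frame M, S'.w = S.w ∧ ¬ IsPure (1 + S'.B) ∧ S'.Tight ∧ ((2 : F) = 0 → Red S'.θ) ∧
      (∀ u, S.θ *ᵥ u = 0 → S'.θ *ᵥ u = 0) := by
  set N := Fintype.card α with hN
  obtain ⟨S', hw, hnp', ⟨c, hc⟩, hC⟩ := S.exists_iter H hnp (N + 1)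
  obtain ⟨c', hc'0, hc'⟩ := hC N rfl
  have hc0 : c ≠ 0 := fun h => S'.θ_ne H hnp' (by rw [hc, h, zero_smul])
  have hle : Fintype.card α ≤ 2 ^ N := Nat.lt_two_pow_self.le
  refine ⟨S', hw, hnp', fun u hu => ?_, fun h2 => hc ▸ red_pow h2 (hle.trans (Nat.pow_le_pow_right two_pos (by omega))) c,
    fun u hu => ?_⟩
  · rw [hc, smul_mulVec, smul_eq_zero, or_iff_right hc0, pow_succ, mul_two] at hu
    rw [hc', smul_mulVec, pow_mulVec_zero hle hu, smul_zero]
  · rw [hc, smul_mulVec, show 2 ^ (N + 1) = 2 ^ (N + 1) - 1 + 1 from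
      (Nat.sub_add_cancel Nat.one_le_two_pow).symm, pow_succ, ← mulVec_mulVec, hu, mulVec_zero, smul_zero]

theorem fine_of_tight (ht : S.Tight) (hr : (2 : F) = 0 → Red S.θ) : S.Fine := by
  refine ⟨ht, ?_⟩
  by_cases h2 : (2 : F) = 0
  · exact Or.inr (Or.inl (hr h2))
  · exact Or.inl h2

end Frame

end Cfsg.Agent.H58.Wreath.SU
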